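import Mathlib
import Cfsg.Agent.Lib.PGroup.Basic

/-!
# Elementary abelian subgroups of finite 3-groups: extensions, conjugation, counting

Basic toolkit for the count modulo 3 of the elementary abelian subgroups of a 3-group
(`Conn3.Relative`, `Conn3.Count`).
-/

set_option autoImplicit false

namespace Cfsg.Agent.Lib.Conn3

open Subgroup
open scoped Classical

variable {G : Type*} [Group G]

/-- Abelian of exponent dividing 3. -/
def El (E : Subgroup G) : Prop := (∀ a ∈ E, ∀ b ∈ E, a * b = b * a) ∧ ∀ a ∈ E, a ^ 3 = 1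

/-- `T` normalizes `H`. -/
def Nrm (T H : Subgroup G) : Prop := ∀ t ∈ T, ∀ h ∈ H, t * h * t⁻¹ ∈ H

/-- The conjugate `g H g⁻¹`. -/
noncomputable def conjS (g : G) (H : Subgroup G) : Subgroup G := H.map (MulAut.conj g).toMonoidHom

theorem mem_conjS {g x : G} {H : Subgroup G} : x ∈ conjS g H ↔ g⁻¹ * x * g ∈ H := by
  unfold conjS
  rw [Subgroup.mem_map]
  constructor
  · rintro ⟨h, hh, rfl⟩
    have : g⁻¹ * ((MulAut.conj g).toMonoidHom h) * g = h := by
      simp [MulAut.conj_apply]; group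
    rw [this]; exact hh
  · intro hx
    refine ⟨_, hx, ?_⟩
    simp [MulAut.conj_apply]; group

theorem conj_mem_conjS {g x : G} {H : Subgroup G} (hx : x ∈ H) : g * x * g⁻¹ ∈ conjS g H := by
  rw [mem_conjS]
  have : g⁻¹ * (g * x * g⁻¹) * g = x := by group
  rw [this]; exact hx

theorem conjS_mul (g h : G) (H : Subgroup G) : conjS (g * h) H = conjS g (conjS h H) := by
  ext x
  simp only [mem_conjS]
  have : (g * h)⁻¹ * x * (g * h) = h⁻¹ * (g⁻¹ * x * g) * h := by group
  rw [this]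

theorem conjS_one (H : Subgroup G) : conjS (1 : G) H = H := by
  ext x; simp [mem_conjS]

theorem card_conjS (g : G) (H : Subgroup G) : Nat.card (conjS g H) = Nat.card H := by
  unfold conjS
  exact Subgroup.card_map_of_injective (MulEquiv.injective _)

theorem conjS_le_of_nrm {T H : Subgroup G} (h : Nrm T H) {t : G} (ht : t ∈ T) : conjS t H ≤ H := by
  intro x hx
  rw [mem_conjS] at hx
  have := h t ht _ hx
  have e : t * (t⁻¹ * x * t) * t⁻¹ = x := by group
  rwa [e] at this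

theorem le_conjS_of_nrm {T H : Subgroup G} (h : Nrm T H) {t : G} (ht : t ∈ T) : H ≤ conjS t H := by
  intro x hx
  rw [mem_conjS]
  have := h t⁻¹ (T.inv_mem ht) _ hx
  simpa using this

theorem conjS_eq_of_nrm {T H : Subgroup G} (h : Nrm T H) {t : G} (ht : t ∈ T) : conjS t H = H :=
  le_antisymm (conjS_le_of_nrm h ht) (le_conjS_of_nrm h ht)

theorem nrm_of_conjS_eq {T H : Subgroup G} (h : ∀ t ∈ T, conjS t H = H) : Nrm T H := by
  intro t ht x hx
  have : t * x * t⁻¹ ∈ conjS t H := conj_mem_conjS hx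
  rwa [h t ht] at this

theorem El.conjS {E : Subgroup G} (h : El E) (g : G) : El (conjS g E) := by
  constructor
  · intro a ha b hb
    rw [mem_conjS] at ha hb
    have := h.1 _ ha _ hb
    have e : a * b = g * ((g⁻¹ * a * g) * (g⁻¹ * b * g)) * g⁻¹ := by group
    rw [e, this]; group
  · intro a ha
    rw [mem_conjS] at ha
    have := h.2 _ ha
    have e : (g⁻¹ * a * g) ^ 3 = g⁻¹ * a ^ 3 * g := by
      simp only [pow_succ, pow_zero, one_mul]; group
    rw [e] at this
    have h2 : a ^ 3 = g * (g⁻¹ * a ^ 3 * g) * g⁻¹ := by group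
    rw [h2, this]; group

theorem El.mono {E F : Subgroup G} (h : El F) (hEF : E ≤ F) : El E :=
  ⟨fun a ha b hb => h.1 a (hEF ha) b (hEF hb), fun a ha => h.2 a (hEF ha)⟩

/-! ### Adjoining an element -/

theorem mem_sup_zpowers {Z : Subgroup G} {x : G} (hc : ∀ z ∈ Z, z * x = x * z) (hx : x ^ 3 = 1)
    {y : G} : y ∈ Z ⊔ zpowers x ↔ ∃ z ∈ Z, ∃ i : ℕ, i < 3 ∧ y = z * x ^ i := by
  constructor
  · intro hy
    have hcp : ∀ (i : ℕ), ∀ z ∈ Z, z * x ^ i = x ^ i * z := by
      intro i z hz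
      exact ((Commute.pow_right (show Commute z x from hc z hz) i) : _)
    let K : Subgroup G :=
      { carrier := {y | ∃ z ∈ Z, ∃ i : ℕ, y = z * x ^ i}
        one_mem' := ⟨1, Z.one_mem, 0, by simp⟩
        mul_mem' := by
          rintro _ _ ⟨z, hz, i, rfl⟩ ⟨z', hz', j, rfl⟩
          refine ⟨z * z', Z.mul_mem hz hz', i + j, ?_⟩
          rw [pow_add, mul_assoc, mul_assoc, ← mul_assoc (x ^ i), ← hcp i z' hz']
          simp [mul_assoc]
        inv_mem' := by
          rintro _ ⟨z, hz, i, rfl⟩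
          refine ⟨z⁻¹, Z.inv_mem hz, 2 * i, ?_⟩
          have h3 : x ^ (3 * i) = 1 := by rw [pow_mul, hx, one_pow]
          have h4 : (x ^ i)⁻¹ = x ^ (2 * i) := by
            rw [inv_eq_iff_mul_eq_one, ← pow_add]
            rw [show i + 2 * i = 3 * i by ring, h3]
          rw [mul_inv_rev, h4, ← hcp (2 * i) _ (Z.inv_mem hz)] }
    have hle : Z ⊔ zpowers x ≤ K := by
      apply sup_le
      · intro z hz
        exact ⟨z, hz, 0, by simp⟩
      · rw [zpowers_le]
        exact ⟨1, Z.one_mem, 1, by simp⟩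
    obtain ⟨z, hz, i, rfl⟩ := hle hy
    refine ⟨z, hz, i % 3, Nat.mod_lt _ (by norm_num), ?_⟩
    congr 1
    conv_lhs => rw [← Nat.div_add_mod i 3, pow_add, pow_mul, hx, one_pow, one_mul]
  · rintro ⟨z, hz, i, -, rfl⟩
    exact mul_mem (mem_sup_left hz) (mem_sup_right (pow_mem (mem_zpowers x) i))

theorem El.sup {Z : Subgroup G} {x : G} (hZ : El Z) (hc : ∀ z ∈ Z, z * x = x * z) (hx : x ^ 3 = 1) :
    El (Z ⊔ zpowers x) := by
  have hcp : ∀ (i : ℕ), ∀ z ∈ Z, Commute z (x ^ i) := fun i z hz =>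
    Commute.pow_right (show Commute z x from hc z hz) i
  constructor
  · intro a ha b hb
    obtain ⟨z, hz, i, -, rfl⟩ := (mem_sup_zpowers hc hx).1 ha
    obtain ⟨z', hz', j, -, rfl⟩ := (mem_sup_zpowers hc hx).1 hb
    have h1 : Commute z z' := hZ.1 z hz z' hz'
    have h2 : Commute (x ^ i) (x ^ j) := (Commute.refl x).pow_pow i j
    have h3 := hcp i z' hz'
    have h4 := hcp j z hz
    exact ((h1.mul_right h4).mul_left ((h3.symm).mul_right h2) : Commute _ _)
  · intro a ha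
    obtain ⟨z, hz, i, -, rfl⟩ := (mem_sup_zpowers hc hx).1 ha
    rw [(hcp i z hz).mul_pow, hZ.2 z hz, one_mul, ← pow_mul, mul_comm, pow_mul, hx, one_pow]

theorem not_mem_pow {Z : Subgroup G} {x : G} (hx : x ^ 3 = 1) (hxZ : x ∉ Z) {i : ℕ} (hi : 0 < i)
    (hi3 : i < 3) : x ^ i ∉ Z := by
  intro h
  apply hxZ
  interval_cases i
  · simpa using h
  · have : x = (x ^ 2) ^ 2 := by
      rw [← pow_mul]
      have : x ^ (2 * 2) = x ^ 3 * x := by rw [← pow_succ]
      rw [this, hx, one_mul]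
    rw [this]; exact Z.pow_mem h 2

theorem card_sup {Z : Subgroup G} {x : G} (hc : ∀ z ∈ Z, z * x = x * z) (hx : x ^ 3 = 1)
    (hxZ : x ∉ Z) : Nat.card ↥(Z ⊔ zpowers x) = 3 * Nat.card Z := by
  let f : Z × Fin 3 → ↥(Z ⊔ zpowers x) := fun p =>
    ⟨(p.1 : G) * x ^ (p.2 : ℕ), (mem_sup_zpowers hc hx).2 ⟨p.1, p.1.2, p.2, p.2.2, rfl⟩⟩
  have hf : Function.Bijective f := by
    constructor
    · rintro ⟨⟨z, hz⟩, i⟩ ⟨⟨z', hz'⟩, j⟩ h
      have h1 : z * x ^ (i : ℕ) = z' * x ^ (j : ℕ) := congrArg Subtype.val h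
      have key : ∀ (a b : ℕ) (u v : G), u ∈ Z → v ∈ Z → a < b → b < 3 → u * x ^ a = v * x ^ b → False := by
        intro a b u v hu hv hab hb e
        have : x ^ (b - a) ∈ Z := by
          have e2 : x ^ (b - a) = v⁻¹ * u := by
            have : x ^ b = x ^ a * x ^ (b - a) := by rw [← pow_add]; congr 1; omega
            rw [this, ← mul_assoc] at e
            have e3 : u * x ^ a = (v * x ^ (a)) * x ^ (b - a) := e
            have hcv : v * x ^ a = x ^ a * v := Commute.pow_right (show Commute v x from hc v hv) a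
            have hcu : u * x ^ a = x ^ a * u := Commute.pow_right (show Commute u x from hc u hu) a
            rw [hcu, hcv, mul_assoc] at e3
            have e4 := mul_left_cancel e3
            rw [e4]; group
          rw [e2]; exact Z.mul_mem (Z.inv_mem hv) hu
        exact not_mem_pow hx hxZ (by omega) (by omega) this
      have hij : (i : ℕ) = j := by
        rcases lt_trichotomy (i : ℕ) j with h2 | h2 | h2
        · exact (key _ _ _ _ hz hz' h2 j.2 h1).elim
        · exact h2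
        · exact (key _ _ _ _ hz' hz h2 i.2 h1.symm).elim
      have hij' : i = j := Fin.ext hij
      subst hij'
      have : z = z' := mul_right_cancel h1
      subst this
      rfl
    · rintro ⟨y, hy⟩
      obtain ⟨z, hz, i, hi, rfl⟩ := (mem_sup_zpowers hc hx).1 hy
      exact ⟨⟨⟨z, hz⟩, ⟨i, hi⟩⟩, rfl⟩
  rw [← Nat.card_congr (Equiv.ofBijective f hf), Nat.card_prod, Nat.card_eq_fintype_card (α := Fin 3),
    Fintype.card_fin, mul_comm]

variable [Finite G]

/-- A subgroup of index 3 over `Z` containing `x ∉ Z` is generated by `Z` and `x`. -/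
theorem eq_sup_of_mem {Z F : Subgroup G} {x : G} (hZF : Z ≤ F) (hF : El F)
    (hcard : Nat.card F = 3 * Nat.card Z) (hxF : x ∈ F) (hxZ : x ∉ Z) : F = Z ⊔ zpowers x := by
  have hc : ∀ z ∈ Z, z * x = x * z := fun z hz => hF.1 z (hZF hz) x hxF
  have hx := hF.2 x hxF
  symm
  apply Subgroup.eq_of_le_of_card_ge
  · exact sup_le hZF ((zpowers_le).2 hxF)
  · rw [card_sup hc hx hxZ, hcard]

/-- Two members of index 3 over `Z` sharing an element outside `Z` coincide. -/
theorem eq_of_common {Z F F' : Subgroup G} {x : G} (hZF : Z ≤ F) (hF : El F)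
    (hcard : Nat.card F = 3 * Nat.card Z) (hZF' : Z ≤ F') (hF' : El F')
    (hcard' : Nat.card F' = 3 * Nat.card Z) (hxF : x ∈ F) (hxF' : x ∈ F') (hxZ : x ∉ Z) : F = F' := by
  rw [eq_sup_of_mem hZF hF hcard hxF hxZ, eq_sup_of_mem hZF' hF' hcard' hxF' hxZ]

/-- Commutation of a `T`-normal section of order 3: `t l t⁻¹ l⁻¹ ∈ Z`. -/
theorem conj_mod {T Z L : Subgroup G} (hT : IsPGroup 3 T) (hZT : Nrm T Z) (hLT : Nrm T L)
    (hZL : Z ≤ L) (hL : El L) (hcard : Nat.card L = 3 * Nat.card Z) {t l : G} (ht : t ∈ T) (hl : l ∈ L) :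
    t * l * t⁻¹ * l⁻¹ ∈ Z := by
  by_cases hlZ : l ∈ Z
  · exact Z.mul_mem (hZT t ht l hlZ) (Z.inv_mem hlZ)
  -- `L = Z ⟨l⟩`
  have hLeq := eq_sup_of_mem hZL hL hcard hl hlZ
  have hc : ∀ z ∈ Z, z * l = l * z := fun z hz => hL.1 z (hZL hz) l hl
  have hl3 := hL.2 l hl
  have hmem : t * l * t⁻¹ ∈ Z ⊔ zpowers l := by
    rw [← hLeq]; exact hLT t ht l hl
  obtain ⟨z, hz, i, hi, hei⟩ := (mem_sup_zpowers hc hl3).1 hmem
  -- `t²` centralizes `l` modulo `Z`
  have h2 : t ^ 2 * l * (t ^ 2)⁻¹ * l⁻¹ ∈ Z := by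
    have ht' : t⁻¹ ∈ T := T.inv_mem ht
    interval_cases i
    · exfalso
      apply hlZ
      have e0 : t * l * t⁻¹ = z := by simpa using hei
      have := hZT _ ht' z hz
      rw [← e0] at this
      have e : t⁻¹ * (t * l * t⁻¹) * t⁻¹⁻¹ = l := by group
      rwa [e] at this
    · have e0 : t * l * t⁻¹ = z * l := by simpa using hei
      have e : t ^ 2 * l * (t ^ 2)⁻¹ * l⁻¹ = (t * z * t⁻¹) * z := by
        have : t ^ 2 * l * (t ^ 2)⁻¹ = t * (t * l * t⁻¹) * t⁻¹ := by
          simp only [pow_two]; group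
        rw [this, e0]
        have : t * (z * l) * t⁻¹ = (t * z * t⁻¹) * (t * l * t⁻¹) := by group
        rw [this, e0]; group
      rw [e]
      exact Z.mul_mem (hZT t ht z hz) hz
    · have e0 : t * l * t⁻¹ = z * l ^ 2 := hei
      have hli : l ^ 2 = l⁻¹ := by
        rw [eq_inv_iff_mul_eq_one, ← pow_succ, hl3]
      rw [hli] at e0
      have e : t ^ 2 * l * (t ^ 2)⁻¹ * l⁻¹ = (t * z * t⁻¹) * (z * l⁻¹)⁻¹ * l⁻¹ := by
        have : t ^ 2 * l * (t ^ 2)⁻¹ = t * (t * l * t⁻¹) * t⁻¹ := by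
          simp only [pow_two]; group
        rw [this, e0]
        have : t * (z * l⁻¹) * t⁻¹ = (t * z * t⁻¹) * (t * l * t⁻¹)⁻¹ := by group
        rw [this, e0]
      rw [e]
      have e' : (t * z * t⁻¹) * (z * l⁻¹)⁻¹ * l⁻¹ = (t * z * t⁻¹) * (l * z⁻¹ * l⁻¹) := by group
      rw [e', ← hc _ (Z.inv_mem hz)]
      have : z⁻¹ * l * l⁻¹ = z⁻¹ := by group
      rw [this]
      exact Z.mul_mem (hZT t ht z hz) (Z.inv_mem hz)
  -- powers of `t²`
  have hpow : ∀ n : ℕ, (t ^ 2) ^ n * l * ((t ^ 2) ^ n)⁻¹ * l⁻¹ ∈ Z := by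
    intro n
    induction n with
    | zero => simp
    | succ n ih =>
      have ht2 : t ^ 2 ∈ T := T.pow_mem ht 2
      have e : (t ^ 2) ^ (n + 1) * l * ((t ^ 2) ^ (n + 1))⁻¹ * l⁻¹
          = (t ^ 2 * ((t ^ 2) ^ n * l * ((t ^ 2) ^ n)⁻¹ * l⁻¹) * (t ^ 2)⁻¹) *
            (t ^ 2 * l * (t ^ 2)⁻¹ * l⁻¹) := by
        rw [pow_succ']; group
      rw [e]
      exact Z.mul_mem (hZT _ ht2 _ ih) h2
  -- `t` is a 3-element
  obtain ⟨k, hk⟩ := IsPGroup.iff_orderOf.1 hT ⟨t, ht⟩
  have hto : t ^ (3 ^ k) = 1 := by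
    have : (⟨t, ht⟩ : T) ^ (3 ^ k) = 1 := by rw [← hk]; exact pow_orderOf_eq_one _
    simpa using congrArg Subtype.val this
  obtain ⟨q, hq⟩ : ∃ q, 3 ^ k = 2 * q + 1 := by
    have : Odd (3 ^ k) := Odd.pow (by decide)
    obtain ⟨q, hq⟩ := this
    exact ⟨q, hq⟩
  have hti : t⁻¹ = (t ^ 2) ^ q := by
    rw [inv_eq_iff_mul_eq_one, ← pow_mul, ← pow_succ', ← hq, hto]
  have h3 := hpow q
  rw [← hti] at h3
  have h4 := hZT t ht _ h3
  have e : t * (t⁻¹ * l * t⁻¹⁻¹ * l⁻¹) * t⁻¹ = (t * l * t⁻¹ * l⁻¹)⁻¹ := by group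
  rw [e] at h4
  simpa using Z.inv_mem h4

/-- A class-2 cube formula: if `c = [a, b]` commutes with `a`, `b` and has `c³ = 1`, then `(ab)³ = a³ b³`. -/
theorem cube_mul {a b : G} (hca : (a * b * a⁻¹ * b⁻¹) * a = a * (a * b * a⁻¹ * b⁻¹))
    (hcb : (a * b * a⁻¹ * b⁻¹) * b = b * (a * b * a⁻¹ * b⁻¹)) (hc3 : (a * b * a⁻¹ * b⁻¹) ^ 3 = 1)
    (ha : a ^ 3 = 1) (hb : b ^ 3 = 1) : (a * b) ^ 3 = 1 := by
  set c := a * b * a⁻¹ * b⁻¹ with hc
  have hab : a * b = c * (b * a) := by rw [hc]; group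
  have hcba : Commute c a := hca
  have hcbb : Commute c b := hcb
  -- move `a`s to the right
  have e1 : ∀ x, a * (b * x) = c * (b * (a * x)) := by
    intro x
    rw [← mul_assoc a b x, hab]; simp only [mul_assoc]
  have e2 : ∀ x, a * (c * x) = c * (a * x) := by
    intro x
    rw [← mul_assoc, ← hca, mul_assoc]
  have e3 : ∀ x, b * (c * x) = c * (b * x) := by
    intro x
    rw [← mul_assoc, ← hcb, mul_assoc]
  have : (a * b) ^ 3 = c * (c * (c * (c * (c * (c * (b * (b * (b * (a * (a * a)))))))))) := by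
    have e0 : (a * b) ^ 3 = a * (b * (a * (b * (a * b)))) := by
      simp [pow_succ, mul_assoc]
    rw [e0]
    rw [show a * b = a * (b * 1) by simp]
    simp only [e1, e2, e3]
    simp only [mul_one]
  rw [this]
  have e4 : c * (c * (c * (c * (c * (c * (b * (b * (b * (a * (a * a)))))))))) =
      c ^ 3 * (c ^ 3 * (b ^ 3 * a ^ 3)) := by
    simp [pow_succ, mul_assoc]
  rw [e4, hc3, ha, hb]; simp

/-- `T` normalizes `Z ⟨x⟩` when it normalizes `Z` and centralizes `x` modulo `Z`. -/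
theorem nrm_sup {T Z : Subgroup G} {x : G} (hZ : Nrm T Z) (h : ∀ t ∈ T, t * x * t⁻¹ * x⁻¹ ∈ Z) :
    Nrm T (Z ⊔ zpowers x) := by
  intro t ht y hy
  have hle : Z ⊔ zpowers x ≤ (Z ⊔ zpowers x).comap (MulAut.conj t).toMonoidHom := by
    have key : ∀ w, (MulAut.conj t).toMonoidHom w = t * w * t⁻¹ := fun w => by
      simp [MulAut.conj_apply]
    apply sup_le
    · intro z hz
      rw [Subgroup.mem_comap, key]
      exact mem_sup_left (hZ t ht z hz)
    · rw [zpowers_le, Subgroup.mem_comap, key]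
      have e : t * x * t⁻¹ = (t * x * t⁻¹ * x⁻¹) * x := by group
      rw [e]
      exact mul_mem (mem_sup_left (h t ht)) (mem_sup_right (mem_zpowers x))
  have := hle hy
  rw [Subgroup.mem_comap] at this
  simpa [MulAut.conj_apply] using this

/-! ### Fixed points modulo 3 -/

noncomputable instance instFintypeSubgroup : Fintype (Subgroup G) := Fintype.ofFinite _

/-- The number of members of a conjugation-stable family is congruent modulo 3 to the number of
members normalized by the 3-group `T`. -/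
theorem card_fix_mod {T : Subgroup G} (hT : IsPGroup 3 T) (S : Finset (Subgroup G))
    (hS : ∀ t ∈ T, ∀ H ∈ S, conjS t H ∈ S) :
    ((S.card : ℕ) : ZMod 3) = ((S.filter (Nrm T)).card : ℕ) := by
  let act : MulAction T S :=
    { smul := fun t H => ⟨conjS (t : G) (H : Subgroup G), hS t t.2 H H.2⟩
      one_smul := fun H => Subtype.ext (conjS_one _)
      mul_smul := fun t u H => Subtype.ext (conjS_mul _ _ _) }
  have h := IsPGroup.card_modEq_card_fixedPoints (p := 3) (G := T) hT S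
  have h1 : Nat.card S = S.card := by simp
  have h2 : Nat.card (MulAction.fixedPoints T S) = (S.filter (Nrm T)).card := by
    have e : MulAction.fixedPoints T S ≃ (S.filter (Nrm T)) :=
      { toFun := fun H => ⟨H.1.1, by
          have hH := H.2
          refine Finset.mem_filter.2 ⟨H.1.2, nrm_of_conjS_eq ?_⟩
          intro t ht
          have := hH ⟨t, ht⟩
          exact congrArg Subtype.val this⟩
        invFun := fun H => ⟨⟨H.1, (Finset.mem_filter.1 H.2).1⟩, by
          intro t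
          exact Subtype.ext (conjS_eq_of_nrm (Finset.mem_filter.1 H.2).2 t.2)⟩
        left_inv := fun H => rfl
        right_inv := fun H => rfl }
    rw [Nat.card_congr e, Nat.card_eq_fintype_card, Fintype.card_coe]
  rw [h1, h2] at h
  exact (ZMod.natCast_eq_natCast_iff _ _ 3).2 h

end Cfsg.Agent.Lib.Conn3
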