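import Mathlib
import Cfsg.Agent.Lib.Conn3.Basic

/-!
# The relative count: overgroups of index 3 of a central elementary abelian subgroup

If `Z` is a central subgroup of exponent 3 of the 3-group `Q`, the number of abelian subgroups of
exponent 3 containing `Z` with index 3 is congruent to 1 modulo 3 as soon as there is one.
-/

set_option autoImplicit false

namespace Cfsg.Agent.Lib.Conn3

open Subgroup
open scoped Classical

variable {G : Type*} [Group G] [Finite G]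

/-- The translation argument: if a family of overgroups of index 3 of `Z` is stable under right
translation by a subgroup `L` with `|L| = 3 |Z|`, its size is divisible by 3. -/
theorem three_dvd_of_translate (Z L : Subgroup G) (𝓕 : Finset (Subgroup G))
    (hF : ∀ F ∈ 𝓕, Z ≤ F ∧ Nat.card F = 3 * Nat.card Z) (hL : Nat.card L = 3 * Nat.card Z)
    (hclosed : ∀ F ∈ 𝓕, ∀ a ∈ F, a ∉ Z → ∀ l ∈ L, ∃ F' ∈ 𝓕, a * l ∈ F' ∧ a * l ∉ Z)
    (hdisj : ∀ F ∈ 𝓕, ∀ F' ∈ 𝓕, ∀ a ∈ F, a ∈ F' → a ∉ Z → F = F') : 3 ∣ 𝓕.card := by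
  have := Fintype.ofFinite G
  let D : Subgroup G → Finset G := fun F => Finset.univ.filter fun x => x ∈ F ∧ x ∉ Z
  let X : Finset G := 𝓕.biUnion D
  have hcardS : ∀ S : Subgroup G, (Finset.univ.filter fun x => x ∈ S).card = Nat.card S := by
    intro S
    rw [Nat.card_eq_fintype_card, Fintype.card_subtype]
  have hD : ∀ F ∈ 𝓕, (D F).card = 2 * Nat.card Z := by
    intro F hF'
    obtain ⟨h1, h2⟩ := hF F hF'
    have e3 : D F = (Finset.univ.filter fun x => x ∈ F) \ (Finset.univ.filter fun x => x ∈ Z) := by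
      ext x; simp [D]
    rw [e3, Finset.card_sdiff_of_subset, hcardS, hcardS, h2]
    · omega
    · intro x hx
      simp only [Finset.mem_filter, Finset.mem_univ, true_and] at hx ⊢
      exact h1 hx
  have hX : X.card = 𝓕.card * (2 * Nat.card Z) := by
    rw [Finset.card_biUnion]
    · rw [Finset.sum_congr rfl hD, Finset.sum_const, smul_eq_mul]
    · intro F hF1 F' hF2 hne
      show Disjoint (D F) (D F')
      rw [Finset.disjoint_left]
      intro x hx hx'
      simp only [D, Finset.mem_filter, Finset.mem_univ, true_and] at hx hx'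
      exact hne (hdisj F hF1 F' hF2 x hx.1 hx'.1 hx.2)
  have hmemX : ∀ x, x ∈ X ↔ ∃ F ∈ 𝓕, x ∈ F ∧ x ∉ Z := by
    intro x
    simp [X, D]
  have hLdvd : Nat.card L ∣ X.card := by
    let q : G → G ⧸ L := QuotientGroup.mk
    rw [Finset.card_eq_sum_card_image q X]
    apply Finset.dvd_sum
    intro b hb
    obtain ⟨a, ha, rfl⟩ := Finset.mem_image.1 hb
    have hfib : X.filter (fun x => q x = q a) =
        Finset.image (fun l : L => a * (l : G)) (@Finset.univ L (Fintype.ofFinite L)) := by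
      ext x
      simp only [Finset.mem_filter, Finset.mem_image]
      constructor
      · rintro ⟨-, hx⟩
        have : a⁻¹ * x ∈ L := QuotientGroup.eq.1 hx.symm
        refine ⟨⟨_, this⟩, @Finset.mem_univ _ (Fintype.ofFinite L) _, ?_⟩
        simp
      · rintro ⟨l, -, rfl⟩
        constructor
        · obtain ⟨F, hFm, h1, h2⟩ := (hmemX a).1 ha
          obtain ⟨F', hF', h3, h4⟩ := hclosed F hFm a h1 h2 l l.2
          exact (hmemX _).2 ⟨F', hF', h3, h4⟩
        · symm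
          exact QuotientGroup.eq.2 (by simp)
    rw [hfib, Finset.card_image_of_injective]
    · rw [@Finset.card_univ L (Fintype.ofFinite L), ← @Nat.card_eq_fintype_card L (Fintype.ofFinite L)]
    · intro l l' h
      exact Subtype.ext (mul_left_cancel h)
  rw [hX, hL] at hLdvd
  have hZ0 : 0 < Nat.card Z := Nat.card_pos
  have h1 : 3 * Nat.card Z ∣ (𝓕.card * 2) * Nat.card Z := by
    rwa [mul_assoc]
  have h2 : 3 ∣ 𝓕.card * 2 := Nat.dvd_of_mul_dvd_mul_right hZ0 h1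
  exact (Nat.Coprime.dvd_mul_right (by norm_num)).1 h2

/-- Maximal subgroups above a proper subgroup. -/
theorem exists_max_above (hG : IsPGroup 3 G) {R Q : Subgroup G} (hRQ : R ≤ Q) (hne : R ≠ Q) :
    ∃ M, R ≤ M ∧ M ≤ Q ∧ Nat.card Q = 3 * Nat.card M ∧ Nrm Q M := by
  haveI : Fact (Nat.Prime 3) := ⟨by norm_num⟩
  have hQ : IsPGroup 3 Q := hG.to_subgroup Q
  have htop : R.subgroupOf Q ≠ ⊤ := by
    intro h
    apply hne
    exact le_antisymm hRQ (Subgroup.subgroupOf_eq_top.1 h)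
  obtain ⟨H, hH, hRH⟩ := (eq_top_or_exists_le_coatom (R.subgroupOf Q)).resolve_left htop
  have hi : H.index = 3 := Cfsg.Agent.Lib.PGroup.index_eq_prime_of_isCoatom hQ hH
  have hn : H.Normal := Cfsg.Agent.Lib.PGroup.normal_of_index_eq_prime hQ hi
  refine ⟨H.map Q.subtype, ?_, Subgroup.map_subtype_le H, ?_, ?_⟩
  · intro r hr
    refine ⟨⟨r, hRQ hr⟩, hRH ?_, rfl⟩
    exact Subgroup.mem_subgroupOf.2 hr
  · rw [Subgroup.card_map_of_injective Q.subtype_injective, ← Subgroup.card_mul_index H, hi, mul_comm]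
  · rintro t ht _ ⟨h, hh, rfl⟩
    have := hn.conj_mem h hh ⟨t, ht⟩
    exact ⟨_, this, by simp⟩

/-- Abelian subgroups of exponent 3 of `Q` containing `Z` with index 3. -/
noncomputable def RR (Q Z : Subgroup G) : Finset (Subgroup G) :=
  Finset.univ.filter fun R => R ≤ Q ∧ Z ≤ R ∧ El R ∧ Nat.card R = 3 * Nat.card Z

theorem mem_RR {Q Z R : Subgroup G} :
    R ∈ RR Q Z ↔ R ≤ Q ∧ Z ≤ R ∧ El R ∧ Nat.card R = 3 * Nat.card Z := by
  simp [RR]

theorem RR_conj {T Q Z : Subgroup G} (hQ : Nrm T Q) (hZ : Nrm T Z) :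
    ∀ t ∈ T, ∀ R ∈ RR Q Z, conjS t R ∈ RR Q Z := by
  intro t ht R hR
  obtain ⟨h1, h2, h3, h4⟩ := mem_RR.1 hR
  refine mem_RR.2 ⟨?_, ?_, h3.conjS t, by rw [card_conjS, h4]⟩
  · intro x hx
    rw [mem_conjS] at hx
    have := hQ t ht _ (h1 hx)
    have e : t * (t⁻¹ * x * t) * t⁻¹ = x := by group
    rwa [e] at this
  · intro z hz
    rw [mem_conjS]
    have := hZ t⁻¹ (T.inv_mem ht) z hz
    rw [inv_inv] at this
    exact h2 this

theorem conjS_inv_conjS (t : G) (R : Subgroup G) : conjS t⁻¹ (conjS t R) = R := by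
  rw [← conjS_mul, inv_mul_cancel, conjS_one]

/-- Products of central-modulo-`Z` elements. -/
theorem mul_props {T Z : Subgroup G} {a l : G} (hZ : El Z) (haT : a ∈ T)
    (ha : ∀ t ∈ T, t * a * t⁻¹ * a⁻¹ ∈ Z) (hl : ∀ t ∈ T, t * l * t⁻¹ * l⁻¹ ∈ Z)
    (haZ : ∀ z ∈ Z, z * a = a * z) (hlZ : ∀ z ∈ Z, z * l = l * z) (ha3 : a ^ 3 = 1) (hl3 : l ^ 3 = 1) :
    (a * l) ^ 3 = 1 ∧ (∀ z ∈ Z, z * (a * l) = (a * l) * z) ∧
      ∀ t ∈ T, t * (a * l) * t⁻¹ * (a * l)⁻¹ ∈ Z := by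
  have hc : a * l * a⁻¹ * l⁻¹ ∈ Z := hl a haT
  refine ⟨cube_mul (haZ _ hc) (hlZ _ hc) (hZ.2 _ hc) ha3 hl3, ?_, ?_⟩
  · intro z hz
    rw [← mul_assoc, haZ z hz, mul_assoc, hlZ z hz, mul_assoc]
  · intro t ht
    have h1 := ha t ht
    have h2 := hl t ht
    have e : t * (a * l) * t⁻¹ * (a * l)⁻¹ =
        (t * a * t⁻¹ * a⁻¹) * (a * (t * l * t⁻¹ * l⁻¹) * a⁻¹) := by group
    rw [e]
    refine Z.mul_mem h1 ?_
    rw [← haZ _ h2]
    simpa using h2

/-- **The relative count.** -/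
theorem rel_count (hG : IsPGroup 3 G) : ∀ (n : ℕ) (Q Z : Subgroup G), Nat.card Q = n → El Z → Z ≤ Q →
    (∀ z ∈ Z, ∀ q ∈ Q, z * q = q * z) → (RR Q Z).Nonempty → (((RR Q Z).card : ℕ) : ZMod 3) = 1 := by
  intro n
  induction n using Nat.strong_induction_on with
  | _ n ih =>
  intro Q Z hn hZ hZQ hcen hne
  obtain ⟨R₁, hR₁⟩ := hne
  obtain ⟨h1, h2, h3, h4⟩ := mem_RR.1 hR₁
  have hZN : Nrm Q Z := by
    intro q hq z hz
    rw [← hcen z hz q hq]
    simpa using hz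
  by_cases hR₁Q : R₁ = Q
  · have : RR Q Z = {Q} := by
      ext R
      rw [Finset.mem_singleton]
      constructor
      · intro hR
        obtain ⟨h5, -, -, h8⟩ := mem_RR.1 hR
        apply Subgroup.eq_of_le_of_card_ge h5
        rw [h8, ← h4, hR₁Q]
      · rintro rfl
        subst hR₁Q
        exact hR₁
    rw [this]; simp
  · obtain ⟨M₁, hRM, hMQ, hcardM, hMN⟩ := exists_max_above hG h1 hR₁Q
    have hQp : IsPGroup 3 Q := hG.to_subgroup Q
    have hM0 : 0 < Nat.card M₁ := Nat.card_pos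
    have hlt : Nat.card M₁ < n := by omega
    have hcM : (((RR M₁ Z).card : ℕ) : ZMod 3) = 1 :=
      ih _ hlt M₁ Z rfl hZ (h2.trans hRM) (fun z hz q hq => hcen z hz q (hMQ hq))
        ⟨R₁, mem_RR.2 ⟨hRM, h2, h3, h4⟩⟩
    have hstM := RR_conj hMN hZN
    have hfix := card_fix_mod hQp (RR M₁ Z) hstM
    rw [hcM] at hfix
    have hne2 : ((RR M₁ Z).filter (Nrm Q)).Nonempty := by
      rw [Finset.nonempty_iff_ne_empty]
      intro h
      rw [h] at hfix
      simp at hfix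
    obtain ⟨R₂, hR₂⟩ := hne2
    obtain ⟨hR₂m, hR₂N⟩ := Finset.mem_filter.1 hR₂
    obtain ⟨h5, h6, h7, h8⟩ := mem_RR.1 hR₂m
    -- the rest
    let S := RR Q Z \ RR M₁ Z
    have hsub : RR M₁ Z ⊆ RR Q Z := by
      intro R hR
      obtain ⟨a, b, c, d⟩ := mem_RR.1 hR
      exact mem_RR.2 ⟨a.trans hMQ, b, c, d⟩
    have hcard : (RR Q Z).card = (RR M₁ Z).card + S.card := by
      rw [Finset.card_sdiff_of_subset hsub]
      have := Finset.card_le_card hsub
      omega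
    have hstS : ∀ t ∈ Q, ∀ R ∈ S, conjS t R ∈ S := by
      intro t ht R hR
      obtain ⟨hR1, hR2⟩ := Finset.mem_sdiff.1 hR
      refine Finset.mem_sdiff.2 ⟨RR_conj (fun _ _ _ _ => ?_) hZN t ht R hR1, fun hc => hR2 ?_⟩
      · exact Q.mul_mem (Q.mul_mem ‹_› ‹_›) (Q.inv_mem ‹_›)
      · have := hstM t⁻¹ (Q.inv_mem ht) _ hc
        rwa [conjS_inv_conjS] at this
    have hfixS := card_fix_mod hQp S hstS
    have hdvd : 3 ∣ (S.filter (Nrm Q)).card := by
      apply three_dvd_of_translate Z R₂ (S.filter (Nrm Q))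
      · intro F hF
        obtain ⟨hF1, -⟩ := Finset.mem_filter.1 hF
        obtain ⟨a, b, c, d⟩ := mem_RR.1 (Finset.mem_sdiff.1 hF1).1
        exact ⟨b, d⟩
      · exact h8
      · intro F hF a haF haZ l hl
        obtain ⟨hF1, hFN⟩ := Finset.mem_filter.1 hF
        obtain ⟨hF2, hF3⟩ := Finset.mem_sdiff.1 hF1
        obtain ⟨a1, a2, a3, a4⟩ := mem_RR.1 hF2
        have hlQ : l ∈ Q := hMQ (h5 hl)
        have haM : a ∉ M₁ := by
          intro haM
          apply hF3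
          refine mem_RR.2 ⟨?_, a2, a3, a4⟩
          rw [eq_sup_of_mem a2 a3 a4 haF haZ]
          exact sup_le (h2.trans hRM) ((zpowers_le).2 haM)
        have hT1 : ∀ t ∈ Q, t * a * t⁻¹ * a⁻¹ ∈ Z := fun t ht =>
          conj_mod hQp hZN hFN a2 a3 a4 ht haF
        have hT2 : ∀ t ∈ Q, t * l * t⁻¹ * l⁻¹ ∈ Z := fun t ht =>
          conj_mod hQp hZN hR₂N h6 h7 h8 ht hl
        obtain ⟨hx3, hxc, hxn⟩ := mul_props hZ (a1 haF) hT1 hT2
          (fun z hz => a3.1 z (a2 hz) a haF) (fun z hz => h7.1 z (h6 hz) l hl) (a3.2 a haF) (h7.2 l hl)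
        have hxM : a * l ∉ M₁ := by
          intro h
          apply haM
          have := M₁.mul_mem h (M₁.inv_mem (h5 hl))
          simpa using this
        have hxZ : a * l ∉ Z := fun h => hxM (hRM (h2 h))
        have hxQ : a * l ∈ Q := Q.mul_mem (a1 haF) hlQ
        refine ⟨Z ⊔ zpowers (a * l), Finset.mem_filter.2 ⟨Finset.mem_sdiff.2 ⟨mem_RR.2 ⟨?_, le_sup_left, hZ.sup hxc hx3, card_sup hxc hx3 hxZ⟩, ?_⟩, nrm_sup hZN hxn⟩,
          mem_sup_right (mem_zpowers _), hxZ⟩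
        · exact sup_le hZQ ((zpowers_le).2 hxQ)
        · intro hc
          obtain ⟨b1, -, -, -⟩ := mem_RR.1 hc
          exact hxM (b1 (mem_sup_right (mem_zpowers _)))
      · intro F hF F' hF' a ha ha' haZ
        obtain ⟨hF1, -⟩ := Finset.mem_filter.1 hF
        obtain ⟨-, a2, a3, a4⟩ := mem_RR.1 (Finset.mem_sdiff.1 hF1).1
        obtain ⟨hF1', -⟩ := Finset.mem_filter.1 hF'
        obtain ⟨-, b2, b3, b4⟩ := mem_RR.1 (Finset.mem_sdiff.1 hF1').1
        exact eq_of_common a2 a3 a4 b2 b3 b4 ha ha' haZ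
    have h0 : ((S.card : ℕ) : ZMod 3) = 0 := by
      rw [hfixS]
      exact (ZMod.natCast_eq_zero_iff _ _).2 hdvd
    rw [hcard, Nat.cast_add, hcM, h0, add_zero]

/-- A `T`-invariant member. -/
theorem rel_fix (hG : IsPGroup 3 G) {T Q Z : Subgroup G} (hZ : El Z) (hZQ : Z ≤ Q)
    (hcen : ∀ z ∈ Z, ∀ q ∈ Q, z * q = q * z) (hQN : Nrm T Q) (hZN : Nrm T Z)
    (hne : (RR Q Z).Nonempty) : ∃ R ∈ RR Q Z, Nrm T R := by
  have h1 := rel_count hG _ Q Z rfl hZ hZQ hcen hne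
  have h2 := card_fix_mod (hG.to_subgroup T) (RR Q Z) (RR_conj hQN hZN)
  rw [h1] at h2
  have : ((RR Q Z).filter (Nrm T)).Nonempty := by
    rw [Finset.nonempty_iff_ne_empty]
    intro h
    rw [h] at h2
    simp at h2
  obtain ⟨R, hR⟩ := this
  exact ⟨R, (Finset.mem_filter.1 hR).1, (Finset.mem_filter.1 hR).2⟩

end Cfsg.Agent.Lib.Conn3
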