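import Mathlib
import Cfsg.Agent.Lib.Conn3.Relative

/-!
# The configuration `A`, `R` of a normal maximal subgroup of order 27 and a normal subgroup of order 81

`T` a 3-group, `M` normal in `T`, `R ≤ M` normal in `T`, elementary of order 81,
`A ≤ M` normal in `T`, elementary of order 27, maximal among the elementary abelian subgroups of `M`.
Then `W = A ∩ R` has order 9 and `r ↦ [a, r]` maps `R` onto `W` with kernel `W`, for `a ∈ A \ W`.
-/

set_option autoImplicit false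

namespace Cfsg.Agent.Lib.Conn3

open Subgroup
open scoped Classical

variable {G : Type*} [Group G] [Finite G]

/-- The part of `Q` centralizing `A`. -/
noncomputable def Cn (Q A : Subgroup G) : Subgroup G := Q ⊓ centralizer (A : Set G)

omit [Finite G] in
theorem mem_Cn {Q A : Subgroup G} {x : G} : x ∈ Cn Q A ↔ x ∈ Q ∧ ∀ a ∈ A, a * x = x * a := by
  unfold Cn
  rw [Subgroup.mem_inf, Subgroup.mem_centralizer_iff]
  rfl

omit [Finite G] in
theorem nrm_Cn {T Q A : Subgroup G} (hQ : Nrm T Q) (hA : Nrm T A) : Nrm T (Cn Q A) := by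
  intro t ht x hx
  obtain ⟨h1, h2⟩ := mem_Cn.1 hx
  refine mem_Cn.2 ⟨hQ t ht x h1, fun a ha => ?_⟩
  have h3 := hA t⁻¹ (T.inv_mem ht) a ha
  rw [inv_inv] at h3
  have h4 := h2 _ h3
  have e1 : a * (t * x * t⁻¹) = t * ((t⁻¹ * a * t) * x) * t⁻¹ := by group
  have e2 : t * x * t⁻¹ * a = t * (x * (t⁻¹ * a * t)) * t⁻¹ := by group
  rw [e1, e2, h4]

omit [Finite G] in
theorem commute_sup {Z : Subgroup G} {x r : G} (h1 : ∀ z ∈ Z, z * r = r * z) (h2 : x * r = r * x) :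
    ∀ y ∈ Z ⊔ zpowers x, y * r = r * y := by
  have hle : Z ⊔ zpowers x ≤ centralizer ({r} : Set G) := by
    apply sup_le
    · intro z hz
      rw [Subgroup.mem_centralizer_iff]
      rintro _ rfl
      exact (h1 z hz).symm
    · rw [zpowers_le, Subgroup.mem_centralizer_iff]
      rintro _ rfl
      exact h2.symm
  intro y hy
  have := hle hy
  rw [Subgroup.mem_centralizer_iff] at this
  exact (this r rfl).symm

omit [Finite G] in
theorem RR_of_sup {Q A : Subgroup G} {u : G} [Finite G] (hA : El A) (hu : u ∈ Q) (hAQ : A ≤ Q)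
    (hc : ∀ a ∈ A, a * u = u * a) (h3 : u ^ 3 = 1) (huA : u ∉ A) : A ⊔ zpowers u ∈ RR (Cn Q A) A := by
  have hE := hA.sup hc h3
  refine mem_RR.2 ⟨?_, le_sup_left, hE, card_sup hc h3 huA⟩
  intro y hy
  refine mem_Cn.2 ⟨(sup_le hAQ ((zpowers_le).2 hu)) hy, fun a ha => ?_⟩
  exact hE.1 a (mem_sup_left ha) y hy

/-- The configuration. -/
structure Cfg (T M R A : Subgroup G) : Prop where
  hMT : M ≤ T
  hMN : Nrm T M
  hRM : R ≤ M
  hREl : El R
  hRc : Nat.card R = 81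
  hRN : Nrm T R
  hAM : A ≤ M
  hAEl : El A
  hAc : Nat.card A = 27
  hAN : Nrm T A
  hmax : ¬ (RR (Cn M A) A).Nonempty

namespace Cfg

variable {T M R A : Subgroup G}

theorem mem_of_comm (c : Cfg T M R A) {r : G} (hr : r ∈ R) (h : ∀ a ∈ A, a * r = r * a) : r ∈ A := by
  by_contra hrA
  exact c.hmax ⟨_, RR_of_sup c.hAEl (c.hRM hr) c.hAM h (c.hREl.2 r hr) hrA⟩

theorem comm_mem (c : Cfg T M R A) {a r : G} (ha : a ∈ A) (hr : r ∈ R) :
    a * r * a⁻¹ * r⁻¹ ∈ A ⊓ R := by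
  have haT : a ∈ T := c.hMT (c.hAM ha)
  have hrT : r ∈ T := c.hMT (c.hRM hr)
  refine ⟨?_, ?_⟩
  · have := c.hAN r hrT a⁻¹ (A.inv_mem ha)
    have e : a * r * a⁻¹ * r⁻¹ = a * (r * a⁻¹ * r⁻¹) := by group
    rw [e]
    exact A.mul_mem ha this
  · exact R.mul_mem (c.hRN a haT r hr) (R.inv_mem hr)

/-- The commutator map `r ↦ [a, r]`. -/
noncomputable def phi (c : Cfg T M R A) {a : G} (ha : a ∈ A) : R →* ↥(A ⊓ R) :=
  MonoidHom.mk' (fun r => ⟨a * r * a⁻¹ * (r : G)⁻¹, c.comm_mem ha r.2⟩) (by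
    rintro ⟨r, hr⟩ ⟨r', hr'⟩
    apply Subtype.ext
    show a * (r * r') * a⁻¹ * (r * r')⁻¹ = (a * r * a⁻¹ * r⁻¹) * (a * r' * a⁻¹ * r'⁻¹)
    have hw := (c.comm_mem ha hr').2
    have h1 := c.hREl.1 _ hw _ (R.inv_mem hr)
    have e1 : a * (r * r') * a⁻¹ * (r * r')⁻¹ = a * r * a⁻¹ * ((a * r' * a⁻¹ * r'⁻¹) * r⁻¹) := by group
    rw [e1, h1]; group)

theorem phi_apply (c : Cfg T M R A) {a : G} (ha : a ∈ A) (r : R) :
    ((c.phi ha r : ↥(A ⊓ R)) : G) = a * r * a⁻¹ * (r : G)⁻¹ := rfl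

omit [Finite G] in
theorem comm_of_eq {a r : G} (h : a * r * a⁻¹ * r⁻¹ = 1) : a * r = r * a := by
  have e : a * r = (a * r * a⁻¹ * r⁻¹) * (r * a) := by group
  rw [e, h, one_mul]

theorem card_hom {B : Type*} [Group B] [Finite B] (f : R →* B) :
    Nat.card R = Nat.card f.ker * Nat.card f.range := by
  rw [← Subgroup.index_ker, Subgroup.card_mul_index]

theorem W_not_A (c : Cfg T M R A) : A ⊓ R ≠ A := by
  intro h
  have hAR : A ≤ R := inf_eq_left.1 h
  apply c.hmax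
  refine ⟨R, mem_RR.2 ⟨?_, hAR, c.hREl, by rw [c.hRc, c.hAc]⟩⟩
  intro y hy
  exact mem_Cn.2 ⟨c.hRM hy, fun a ha => c.hREl.1 a (hAR ha) y hy⟩

theorem exists_not_mem {U V : Subgroup G} (h : Nat.card U < Nat.card V) : ∃ x ∈ V, x ∉ U := by
  by_contra hc
  push Not at hc
  have : V ≤ U := hc
  have := Subgroup.card_le_of_le this
  omega

/-- `|A ∩ R| = 9`. -/
theorem card_W (c : Cfg T M R A) (hG : IsPGroup 3 G) : Nat.card ↥(A ⊓ R) = 9 := by
  set W := A ⊓ R with hW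
  have hWA : W ≤ A := inf_le_left
  have hWR : W ≤ R := inf_le_right
  have hdvd : Nat.card W ∣ 27 := by
    rw [← c.hAc]; exact Subgroup.card_dvd_of_le hWA
  have h27 : (27 : ℕ) = 3 ^ 3 := by norm_num
  rw [h27] at hdvd
  obtain ⟨k, hk, hkc⟩ := (Nat.dvd_prime_pow (by norm_num)).1 hdvd
  interval_cases k
  · -- `W` trivial
    exfalso
    have h1 : ∀ r ∈ R, r = 1 := by
      intro r hr
      have hrA : r ∈ A := by
        apply c.mem_of_comm hr
        intro a ha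
        have h2 := c.comm_mem ha hr
        have hW1 : W = ⊥ := by
          rw [Subgroup.eq_bot_iff_card, hkc]; norm_num
        rw [← hW, hW1, Subgroup.mem_bot] at h2
        exact comm_of_eq h2
      have : r ∈ W := ⟨hrA, hr⟩
      have hW1 : W = ⊥ := by
        rw [Subgroup.eq_bot_iff_card, hkc]; norm_num
      rw [hW1] at this
      exact this
    have : R = ⊥ := by
      rw [eq_bot_iff]; intro r hr; exact h1 r hr
    have h2 := c.hRc
    rw [this, Subgroup.card_bot] at h2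
    norm_num at h2
  · -- `|W| = 3`: two commutator maps
    exfalso
    have hW3 : Nat.card W = 3 := by simpa using hkc
    obtain ⟨a₁, ha₁, ha₁W⟩ := exists_not_mem (U := W) (V := A) (by rw [hW3, c.hAc]; norm_num)
    have hc1 : ∀ z ∈ W, z * a₁ = a₁ * z := fun z hz => c.hAEl.1 z (hWA hz) a₁ ha₁
    have h13 := c.hAEl.2 a₁ ha₁
    have hW₁c := card_sup hc1 h13 ha₁W
    have hW₁A : W ⊔ zpowers a₁ ≤ A := sup_le hWA ((zpowers_le).2 ha₁)
    obtain ⟨a₂, ha₂, ha₂W⟩ := exists_not_mem (U := W ⊔ zpowers a₁) (V := A)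
      (by rw [hW₁c, hW3, c.hAc]; norm_num)
    have hAeq := eq_sup_of_mem hW₁A c.hAEl (by rw [hW₁c, hW3, c.hAc]) ha₂ ha₂W
    let Φ : R →* ↥W × ↥W := (c.phi ha₁).prod (c.phi ha₂)
    have hcard := card_hom Φ
    have hker : Nat.card Φ.ker ≤ Nat.card W := by
      have hmem : ∀ r : Φ.ker, ((r : R) : G) ∈ W := by
        rintro ⟨⟨r, hr⟩, hk⟩
        have hk' : Φ ⟨r, hr⟩ = 1 := hk
        have h1 : c.phi ha₁ ⟨r, hr⟩ = 1 := congrArg Prod.fst hk'
        have h2 : c.phi ha₂ ⟨r, hr⟩ = 1 := congrArg Prod.snd hk'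
        have h1' : a₁ * r * a₁⁻¹ * r⁻¹ = 1 := congrArg Subtype.val h1
        have h2' : a₂ * r * a₂⁻¹ * r⁻¹ = 1 := congrArg Subtype.val h2
        have hcW : ∀ z ∈ W, z * r = r * z := fun z hz => c.hREl.1 z (hWR hz) r hr
        refine ⟨c.mem_of_comm hr ?_, hr⟩
        intro a ha
        rw [hAeq] at ha
        exact commute_sup (commute_sup hcW (comm_of_eq h1')) (comm_of_eq h2') a ha
      apply Nat.card_le_card_of_injective (fun r : Φ.ker => (⟨_, hmem r⟩ : W))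
      intro r r' h
      have h' := congrArg Subtype.val h
      exact Subtype.ext (Subtype.ext h')
    have hran : Nat.card Φ.range ≤ Nat.card (↥W × ↥W) := Subgroup.card_le_card_group _
    rw [Nat.card_prod, hW3] at hran
    rw [hW3] at hker
    rw [c.hRc] at hcard
    have : Nat.card Φ.ker * Nat.card Φ.range ≤ 3 * (3 * 3) := Nat.mul_le_mul hker hran
    omega
  · simpa using hkc
  · exfalso
    apply c.W_not_A
    apply Subgroup.eq_of_le_of_card_ge inf_le_left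
    rw [c.hAc, ← hW, hkc]; norm_num

/-- For `a ∈ A \ W`: elements of `R` commuting with `a` lie in `W`. -/
theorem mem_W_of_comm (c : Cfg T M R A) (hG : IsPGroup 3 G) {a r : G} (ha : a ∈ A) (haW : a ∉ A ⊓ R)
    (hr : r ∈ R) (h : a * r = r * a) : r ∈ A ⊓ R := by
  have hcW := c.card_W hG
  have hAeq := eq_sup_of_mem (inf_le_left : A ⊓ R ≤ A) c.hAEl (by rw [hcW, c.hAc]) ha haW
  have hcW' : ∀ z ∈ A ⊓ R, z * r = r * z := fun z hz => c.hREl.1 z hz.2 r hr
  refine ⟨c.mem_of_comm hr ?_, hr⟩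
  intro b hb
  rw [hAeq] at hb
  exact commute_sup hcW' h b hb

/-- For `a ∈ A \ W`: `r ↦ [a, r]` maps `R` onto `W`. -/
theorem surj (c : Cfg T M R A) (hG : IsPGroup 3 G) {a d : G} (ha : a ∈ A) (haW : a ∉ A ⊓ R)
    (hd : d ∈ A ⊓ R) : ∃ r ∈ R, a * r * a⁻¹ * r⁻¹ = d := by
  have hcW := c.card_W hG
  have hcard := card_hom (c.phi ha)
  have hker : Nat.card (c.phi ha).ker ≤ Nat.card ↥(A ⊓ R) := by
    have hmem : ∀ r : (c.phi ha).ker, ((r : R) : G) ∈ A ⊓ R := by
      rintro ⟨⟨r, hr⟩, hk⟩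
      have hk' : c.phi ha ⟨r, hr⟩ = 1 := hk
      have h1' : a * r * a⁻¹ * r⁻¹ = 1 := congrArg Subtype.val hk'
      exact c.mem_W_of_comm hG ha haW hr (comm_of_eq h1')
    apply Nat.card_le_card_of_injective (fun r : (c.phi ha).ker => (⟨_, hmem r⟩ : ↥(A ⊓ R)))
    intro r r' h
    have h' := congrArg Subtype.val h
    exact Subtype.ext (Subtype.ext h')
  have hran : Nat.card (c.phi ha).range ≤ Nat.card ↥(A ⊓ R) := Subgroup.card_le_card_group _
  rw [c.hRc] at hcard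
  rw [hcW] at hker hran
  have hran9 : Nat.card (c.phi ha).range = 9 := by
    by_contra hne
    have : Nat.card (c.phi ha).range ≤ 8 := by omega
    have : Nat.card (c.phi ha).ker * Nat.card (c.phi ha).range ≤ 9 * 8 := Nat.mul_le_mul hker this
    omega
  have htop : (c.phi ha).range = ⊤ := by
    apply Subgroup.eq_top_of_card_eq
    rw [hran9, hcW]
  have : (⟨d, hd⟩ : ↥(A ⊓ R)) ∈ (c.phi ha).range := by rw [htop]; trivial
  obtain ⟨r, hr⟩ := this
  exact ⟨r, r.2, congrArg Subtype.val hr⟩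

end Cfg

end Cfsg.Agent.Lib.Conn3
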