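import Mathlib
import Cfsg.Agent.Lib.Conn3.Config

/-!
# Translating a maximal normal subgroup of order 27 by a central element of `R / W`
-/

set_option autoImplicit false

namespace Cfsg.Agent.Lib.Conn3

open Subgroup
open scoped Classical

variable {G : Type*} [Group G]

theorem alg1 {a l u r d : G} (h1 : a * l * u = u * a * l) (hd : l * u * l⁻¹ * u⁻¹ = d)
    (hr : a * r * a⁻¹ * r⁻¹ = d) (had : a * d = d * a) (hud : u * d = d * u) :
    a * (u * r) = u * r * a := by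
  have e1 : l * u = d * u * l := by rw [← hd]; group
  have e2 : a * r = d * r * a := by rw [← hr]; group
  have e3 : a * d * u = u * a := by
    have : a * d * u * l = u * a * l := by
      rw [← h1, mul_assoc a l u, e1]; simp only [mul_assoc]
    exact mul_right_cancel this
  have e4 : a * u = d⁻¹ * u * a := by
    rw [had, mul_assoc] at e3
    rw [mul_assoc d⁻¹, ← e3]; group
  calc a * (u * r) = (a * u) * r := by rw [mul_assoc]
    _ = d⁻¹ * u * (a * r) := by rw [e4]; simp only [mul_assoc]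
    _ = d⁻¹ * (u * d) * r * a := by rw [e2]; simp only [mul_assoc]
    _ = u * r * a := by rw [hud]; group

theorem alg2 {a l y r d : G} (hay : a * y = y * a) (hd : l * y * l⁻¹ * y⁻¹ = d)
    (hr : a * r * a⁻¹ * r⁻¹ = d⁻¹) (hlr : l * r = r * l) (had : a * d = d * a) (hyd : y * d = d * y) :
    (a * l) * (y * r) = (y * r) * (a * l) := by
  have e1 : l * y = d * y * l := by rw [← hd]; group
  have e2 : r * a = d * a * r := by
    have : a * r = d⁻¹ * r * a := by rw [← hr]; group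
    have e3 : d * (a * r) = r * a := by rw [this]; group
    rw [← e3, mul_assoc]
  calc (a * l) * (y * r) = a * (l * y) * r := by simp only [mul_assoc]
    _ = (a * d) * y * (l * r) := by rw [e1]; simp only [mul_assoc]
    _ = d * (a * y) * (r * l) := by rw [had, hlr]; simp only [mul_assoc]
    _ = (d * y) * a * (r * l) := by rw [hay]; simp only [mul_assoc]
    _ = (y * d) * a * (r * l) := by rw [hyd]
    _ = y * (d * a * r) * l := by simp only [mul_assoc]
    _ = (y * r) * (a * l) := by rw [← e2]; simp only [mul_assoc]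

variable [Finite G] {T M R A : Subgroup G}

theorem Cfg.translate (hG : IsPGroup 3 G) (c : Cfg T M R A) (hext : (RR (Cn T A) A).Nonempty)
    {L₀ : Subgroup G} (hL₀R : L₀ ≤ R) (hWL₀ : A ⊓ R ≤ L₀) (hL₀c : Nat.card L₀ = 27) (hL₀N : Nrm T L₀)
    {a l : G} (ha : a ∈ A) (haW : a ∉ A ⊓ R) (hl : l ∈ L₀) :
    Cfg T M R ((A ⊓ R) ⊔ zpowers (a * l)) ∧
      (RR (Cn T ((A ⊓ R) ⊔ zpowers (a * l))) ((A ⊓ R) ⊔ zpowers (a * l))).Nonempty ∧
      ((A ⊓ R) ⊔ zpowers (a * l)) ⊓ R = A ⊓ R ∧ a * l ∉ A ⊓ R := by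
  set W := A ⊓ R with hW
  have hcW : Nat.card W = 9 := c.card_W hG
  have hTp : IsPGroup 3 T := hG.to_subgroup T
  have hWN : Nrm T W := fun t ht z hz => ⟨c.hAN t ht z hz.1, c.hRN t ht z hz.2⟩
  have hWEl : El W := c.hAEl.mono inf_le_left
  have hWA : W ≤ A := inf_le_left
  have hWR : W ≤ R := inf_le_right
  have haT : a ∈ T := c.hMT (c.hAM ha)
  have hlR : l ∈ R := hL₀R hl
  have hlT : l ∈ T := c.hMT (c.hRM hlR)
  have haR : a ∉ R := fun h => haW ⟨ha, h⟩
  have hT1 : ∀ t ∈ T, t * a * t⁻¹ * a⁻¹ ∈ W := fun t ht =>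
    conj_mod hTp hWN c.hAN hWA c.hAEl (by rw [c.hAc, hcW]) ht ha
  have hT2 : ∀ t ∈ T, t * l * t⁻¹ * l⁻¹ ∈ W := fun t ht =>
    conj_mod hTp hWN hL₀N hWL₀ (c.hREl.mono hL₀R) (by rw [hL₀c, hcW]) ht hl
  obtain ⟨hx3, hxc, hxn⟩ := mul_props hWEl haT hT1 hT2 (fun z hz => c.hAEl.1 z (hWA hz) a ha)
    (fun z hz => c.hREl.1 z (hWR hz) l hlR) (c.hAEl.2 a ha) (c.hREl.2 l hlR)
  have hxe : a * l * l⁻¹ = a := by group
  set x := a * l with hx
  have hxR : x ∉ R := fun h => haR (by have := R.mul_mem h (R.inv_mem hlR); rwa [hxe] at this)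
  have hxW : x ∉ W := fun h => hxR (hWR h)
  have hxM : x ∈ M := M.mul_mem (c.hAM ha) (c.hRM hlR)
  set A' := W ⊔ zpowers x with hA'
  have hA'M : A' ≤ M := sup_le (hWA.trans c.hAM) ((zpowers_le).2 hxM)
  have hA'El : El A' := hWEl.sup hxc hx3
  have hA'c : Nat.card A' = 27 := by rw [card_sup hxc hx3 hxW, hcW]
  have hA'N : Nrm T A' := nrm_sup hWN hxn
  have hxA' : x ∈ A' := mem_sup_right (mem_zpowers x)
  have hWA' : W ≤ A' := le_sup_left
  have hA'R : A' ⊓ R = W := by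
    apply le_antisymm
    · rintro y ⟨hy, hyR⟩
      obtain ⟨z, hz, i, hi, rfl⟩ := (mem_sup_zpowers hxc hx3).1 hy
      have hxi : x ^ i ∈ R := by
        have := R.mul_mem (R.inv_mem (hWR hz)) hyR
        simpa using this
      rcases Nat.eq_zero_or_pos i with rfl | hi0
      · simpa using hz
      · exact absurd hxi (not_mem_pow hx3 hxR hi0 hi)
    · exact le_inf hWA' hWR
  have hAeq : A = W ⊔ zpowers a :=
    eq_sup_of_mem hWA c.hAEl (by rw [hcW, c.hAc]) ha haW
  -- maximality of `A'` in `M`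
  have hmax' : ¬ (RR (Cn M A') A').Nonempty := by
    intro hne
    have hA'le : A' ≤ Cn M A' := fun y hy => mem_Cn.2 ⟨hA'M hy, fun b hb => hA'El.1 b hb y hy⟩
    obtain ⟨R', hR', hR'N⟩ := rel_fix hG (T := T) hA'El hA'le
      (fun z hz q hq => (mem_Cn.1 hq).2 z hz) (nrm_Cn c.hMN hA'N) hA'N hne
    obtain ⟨r1, r2, r3, r4⟩ := mem_RR.1 hR'
    have hR'M : R' ≤ M := fun y hy => (mem_Cn.1 (r1 hy)).1
    have hR'c : Nat.card R' = 81 := by rw [r4, hA'c]
    obtain ⟨u, huR', huA'⟩ := Cfg.exists_not_mem (U := A') (V := R') (by rw [hA'c, hR'c]; norm_num)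
    have huM := hR'M huR'
    have huT := c.hMT huM
    have hWR' : W ≤ R' := hWA'.trans r2
    have hxR' : x ∈ R' := r2 hxA'
    have hR'R : ∀ v, v ∈ R' → v ∈ R → v ∈ W := by
      intro v hv hvR
      apply c.mem_W_of_comm hG ha haW hvR
      have h1 : x * v = v * x := r3.1 x hxR' v hv
      have h2 : l * v = v * l := c.hREl.1 l hlR v hvR
      have : a * v * l = v * a * l := by
        calc a * v * l = a * (v * l) := mul_assoc ..
          _ = a * (l * v) := by rw [h2]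
          _ = x * v := by rw [hx, mul_assoc]
          _ = v * x := h1
          _ = v * a * l := by rw [hx, mul_assoc]
      exact mul_right_cancel this
    have hcomm : ∀ s ∈ R, ∀ b ∈ R', s * b * s⁻¹ * b⁻¹ ∈ W := by
      intro s hs b hb
      apply hR'R
      · have hsT := c.hMT (c.hRM hs)
        exact R'.mul_mem (hR'N s hsT b hb) (R'.inv_mem hb)
      · have hbT := c.hMT (hR'M hb)
        have e : s * b * s⁻¹ * b⁻¹ = s * (b * s⁻¹ * b⁻¹) := by group
        rw [e]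
        exact R.mul_mem hs (c.hRN b hbT _ (R.inv_mem hs))
    have hd := hcomm l hlR u huR'
    obtain ⟨r₁, hr₁, hr₁e⟩ := c.surj hG ha haW hd
    have hr₁M := c.hRM hr₁
    have hcomm1 : a * (u * r₁) = u * r₁ * a := by
      refine alg1 (l := l) (d := l * u * l⁻¹ * u⁻¹) ?_ rfl hr₁e ?_ ?_
      · have := r3.1 x hxR' u huR'
        rw [hx] at this
        rw [this]; simp only [mul_assoc]
      · exact c.hAEl.1 a ha _ (hWA hd)
      · exact r3.1 u huR' _ (hWR' hd)
    have hu3 : (u * r₁) ^ 3 = 1 := by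
      have hcm : u * r₁ * u⁻¹ * r₁⁻¹ ∈ W := by
        have := W.inv_mem (hcomm r₁ hr₁ u huR')
        have e : (r₁ * u * r₁⁻¹ * u⁻¹)⁻¹ = u * r₁ * u⁻¹ * r₁⁻¹ := by group
        rwa [e] at this
      exact cube_mul (r3.1 _ (hWR' hcm) _ huR') (c.hREl.1 _ (hWR hcm) _ hr₁) (hWEl.2 _ hcm)
        (r3.2 u huR') (c.hREl.2 r₁ hr₁)
    have hcW' : ∀ z ∈ W, z * (u * r₁) = u * r₁ * z := by
      intro z hz
      rw [← mul_assoc, r3.1 z (hWR' hz) u huR', mul_assoc, c.hREl.1 z (hWR hz) r₁ hr₁, mul_assoc]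
    have hcA : ∀ b ∈ A, b * (u * r₁) = u * r₁ * b := by
      intro b hb
      rw [hAeq] at hb
      exact commute_sup hcW' hcomm1 b hb
    have hnot : u * r₁ ∉ A := by
      intro hmem
      rw [hAeq] at hmem
      obtain ⟨z, hz, i, hi, hei⟩ := (mem_sup_zpowers (fun z hz => c.hAEl.1 z (hWA hz) a ha)
        (c.hAEl.2 a ha)).1 hmem
      have hzR := hWR hz
      have hu1 : u = z * a ^ i * r₁⁻¹ := by rw [← hei]; group
      have hr₁i := R.inv_mem hr₁
      have hlRi := R.inv_mem hlR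
      interval_cases i
      · apply huA'
        apply hWA'
        apply hR'R u huR'
        rw [hu1]
        simpa using R.mul_mem hzR hr₁i
      · apply huA'
        have hb : u * x⁻¹ ∈ W := by
          apply hR'R
          · exact R'.mul_mem huR' (R'.inv_mem hxR')
          · have e : u * x⁻¹ = z * (a * (r₁⁻¹ * l⁻¹) * a⁻¹) := by
              rw [hu1, hx]; group
            rw [e]
            exact R.mul_mem hzR (c.hRN a haT _ (R.mul_mem hr₁i hlRi))
        have e : u = (u * x⁻¹) * x := by group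
        rw [e]
        exact A'.mul_mem (hWA' hb) hxA'
      · apply huA'
        have ha2 : a ^ 2 = a⁻¹ := by
          rw [eq_inv_iff_mul_eq_one, ← pow_succ, c.hAEl.2 a ha]
        have hb : u * x ∈ W := by
          apply hR'R
          · exact R'.mul_mem huR' hxR'
          · have e : u * x = z * (a⁻¹ * r₁⁻¹ * a⁻¹⁻¹) * l := by
              rw [hu1, hx, ha2]; group
            rw [e]
            exact R.mul_mem (R.mul_mem hzR (c.hRN a⁻¹ (T.inv_mem haT) _ hr₁i)) hlR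
        have e : u = (u * x) * x⁻¹ := by group
        rw [e]
        exact A'.mul_mem (hWA' hb) (A'.inv_mem hxA')
    exact c.hmax ⟨_, RR_of_sup c.hAEl (M.mul_mem huM hr₁M) c.hAM hcA hu3 hnot⟩
  -- extension of `A'` in `T`
  have hTT : Nrm T T := fun t ht y hy => T.mul_mem (T.mul_mem ht hy) (T.inv_mem ht)
  have hA'T : A' ≤ T := hA'M.trans c.hMT
  have hextA' : (RR (Cn T A') A').Nonempty := by
    have hAle : A ≤ Cn T A := fun y hy =>
      mem_Cn.2 ⟨c.hMT (c.hAM hy), fun b hb => c.hAEl.1 b hb y hy⟩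
    obtain ⟨E, hE, hEN⟩ := rel_fix hG (T := T) c.hAEl hAle
      (fun z hz q hq => (mem_Cn.1 hq).2 z hz) (nrm_Cn hTT c.hAN) c.hAN hext
    obtain ⟨e1, e2, e3, e4⟩ := mem_RR.1 hE
    have hET : E ≤ T := fun y hy => (mem_Cn.1 (e1 hy)).1
    have hEM : ¬ E ≤ M := by
      intro h
      apply c.hmax
      refine ⟨E, mem_RR.2 ⟨fun y hy => mem_Cn.2 ⟨h hy, (mem_Cn.1 (e1 hy)).2⟩, e2, e3, e4⟩⟩
    obtain ⟨y, hyE, hyM⟩ := SetLike.not_le_iff_exists.1 hEM
    have hyT := hET hyE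
    have hWE : W ≤ E := hWA.trans e2
    have hER : ∀ v, v ∈ E → v ∈ R → v ∈ W := by
      intro v hv hvR
      exact ⟨c.mem_of_comm hvR (fun b hb => e3.1 b (e2 hb) v hv), hvR⟩
    have hcomm : ∀ s ∈ R, ∀ b ∈ E, s * b * s⁻¹ * b⁻¹ ∈ W := by
      intro s hs b hb
      apply hER
      · have hsT := c.hMT (c.hRM hs)
        exact E.mul_mem (hEN s hsT b hb) (E.inv_mem hb)
      · have hbT := hET hb
        have e : s * b * s⁻¹ * b⁻¹ = s * (b * s⁻¹ * b⁻¹) := by group
        rw [e]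
        exact R.mul_mem hs (c.hRN b hbT _ (R.inv_mem hs))
    have hd := hcomm l hlR y hyE
    obtain ⟨r₂, hr₂, hr₂e⟩ := c.surj hG ha haW (W.inv_mem hd)
    have hcommx : x * (y * r₂) = y * r₂ * x := by
      rw [hx]
      refine alg2 (d := l * y * l⁻¹ * y⁻¹) (e3.1 a (e2 ha) y hyE) rfl hr₂e
        (c.hREl.1 l hlR r₂ hr₂) ?_ ?_
      · exact c.hAEl.1 a ha _ (hWA hd)
      · exact e3.1 y hyE _ (hWE hd)
    have hy3 : (y * r₂) ^ 3 = 1 := by
      have hcm : y * r₂ * y⁻¹ * r₂⁻¹ ∈ W := by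
        have := W.inv_mem (hcomm r₂ hr₂ y hyE)
        have e : (r₂ * y * r₂⁻¹ * y⁻¹)⁻¹ = y * r₂ * y⁻¹ * r₂⁻¹ := by group
        rwa [e] at this
      exact cube_mul (e3.1 _ (hWE hcm) _ hyE) (c.hREl.1 _ (hWR hcm) _ hr₂) (hWEl.2 _ hcm)
        (e3.2 y hyE) (c.hREl.2 r₂ hr₂)
    have hcW' : ∀ z ∈ W, z * (y * r₂) = y * r₂ * z := by
      intro z hz
      rw [← mul_assoc, e3.1 z (hWE hz) y hyE, mul_assoc, c.hREl.1 z (hWR hz) r₂ hr₂, mul_assoc]
    have hcA' : ∀ b ∈ A', b * (y * r₂) = y * r₂ * b := by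
      intro b hb
      exact commute_sup hcW' hcommx b hb
    have hr₂M := c.hRM hr₂
    have hnot : y * r₂ ∉ A' := by
      intro h
      apply hyM
      have := M.mul_mem (hA'M h) (M.inv_mem hr₂M)
      simpa using this
    have hyrT : y * r₂ ∈ T := T.mul_mem hyT (c.hMT hr₂M)
    exact ⟨_, RR_of_sup hA'El hyrT hA'T hcA' hy3 hnot⟩
  exact ⟨⟨c.hMT, c.hMN, c.hRM, c.hREl, c.hRc, c.hRN, hA'M, hA'El, hA'c, hA'N, hmax'⟩, hextA', hA'R, hxW⟩

end Cfsg.Agent.Lib.Conn3
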