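import Mathlib
import Cfsg.Agent.Lib.Conn3.Translate

/-!
# The number of elementary abelian subgroups of order 81 in a 3-group of rank 4 is 1 modulo 3
-/

set_option autoImplicit false

namespace Cfsg.Agent.Lib.Conn3

open Subgroup
open scoped Classical

variable {G : Type*} [Group G] [Finite G]

/-- The special members: maximal in `M`, extendable in `T`. -/
noncomputable def SS (T M R : Subgroup G) : Finset (Subgroup G) :=
  Finset.univ.filter fun A => Cfg T M R A ∧ (RR (Cn T A) A).Nonempty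

theorem mem_SS {T M R A : Subgroup G} : A ∈ SS T M R ↔ Cfg T M R A ∧ (RR (Cn T A) A).Nonempty := by
  simp [SS]

theorem three_dvd_SS (hG : IsPGroup 3 G) (T M R : Subgroup G) : 3 ∣ (SS T M R).card := by
  rw [Finset.card_eq_sum_card_image (fun A => A ⊓ R) (SS T M R)]
  apply Finset.dvd_sum
  intro W hW
  obtain ⟨A₀, hA₀, rfl⟩ := Finset.mem_image.1 hW
  obtain ⟨c₀, -⟩ := mem_SS.1 hA₀
  have hcW : Nat.card ↥(A₀ ⊓ R) = 9 := c₀.card_W hG
  have hWEl : El (A₀ ⊓ R) := c₀.hAEl.mono inf_le_left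
  have hWN : Nrm T (A₀ ⊓ R) := fun t ht z hz => ⟨c₀.hAN t ht z hz.1, c₀.hRN t ht z hz.2⟩
  have hWR : A₀ ⊓ R ≤ R := inf_le_right
  have hne : (RR R (A₀ ⊓ R)).Nonempty := by
    obtain ⟨r, hr, hrW⟩ := Cfg.exists_not_mem (U := A₀ ⊓ R) (V := R) (by rw [hcW, c₀.hRc]; norm_num)
    have hc : ∀ z ∈ A₀ ⊓ R, z * r = r * z := fun z hz => c₀.hREl.1 z (hWR hz) r hr
    have h3 := c₀.hREl.2 r hr
    exact ⟨_, mem_RR.2 ⟨sup_le hWR ((zpowers_le).2 hr), le_sup_left, hWEl.sup hc h3, card_sup hc h3 hrW⟩⟩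
  obtain ⟨L₀, hL₀, hL₀N⟩ := rel_fix hG (T := T) hWEl hWR
    (fun z hz q hq => c₀.hREl.1 z (hWR hz) q hq) c₀.hRN hWN hne
  obtain ⟨l1, l2, l3, l4⟩ := mem_RR.1 hL₀
  have hL₀c : Nat.card L₀ = 27 := by rw [l4, hcW]
  apply three_dvd_of_translate (A₀ ⊓ R) L₀
  · intro F hF
    obtain ⟨hF1, hF2⟩ := Finset.mem_filter.1 hF
    obtain ⟨cF, -⟩ := mem_SS.1 hF1
    have hF2' : F ⊓ R = A₀ ⊓ R := hF2
    refine ⟨hF2' ▸ inf_le_left, ?_⟩
    rw [cF.hAc, hcW]
  · exact l4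
  · intro F hF a haF haZ l hl
    obtain ⟨hF1, hF2⟩ := Finset.mem_filter.1 hF
    obtain ⟨cF, hextF⟩ := mem_SS.1 hF1
    have hF2' : F ⊓ R = A₀ ⊓ R := hF2
    have haZ' : a ∉ F ⊓ R := by rwa [hF2']
    obtain ⟨h1, h2, h3, h4⟩ := cF.translate hG hextF l1 (by rw [hF2']; exact l2) hL₀c hL₀N haF haZ' hl
    refine ⟨_, Finset.mem_filter.2 ⟨mem_SS.2 ⟨h1, h2⟩, ?_⟩, mem_sup_right (mem_zpowers _), by rwa [hF2'] at h4⟩
    show _ ⊓ R = _
    rw [h3, hF2']
  · intro F hF F' hF' a ha ha' haZ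
    obtain ⟨hF1, hF2⟩ := Finset.mem_filter.1 hF
    obtain ⟨cF, -⟩ := mem_SS.1 hF1
    have hF2a : F ⊓ R = A₀ ⊓ R := hF2
    obtain ⟨hF1', hF2'⟩ := Finset.mem_filter.1 hF'
    obtain ⟨cF', -⟩ := mem_SS.1 hF1'
    have hF2b : F' ⊓ R = A₀ ⊓ R := hF2'
    refine eq_of_common (Z := A₀ ⊓ R) (hF2a ▸ inf_le_left) cF.hAEl ?_ (hF2b ▸ inf_le_left) cF'.hAEl ?_ ha ha' haZ
    · rw [cF.hAc, hcW]
    · rw [cF'.hAc, hcW]

/-- The elementary abelian subgroups of order 81 of `T`. -/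
noncomputable def E4 (T : Subgroup G) : Finset (Subgroup G) :=
  Finset.univ.filter fun E => E ≤ T ∧ El E ∧ Nat.card E = 81

theorem mem_E4 {T E : Subgroup G} : E ∈ E4 T ↔ E ≤ T ∧ El E ∧ Nat.card E = 81 := by
  simp [E4]

theorem card_inf_27 {E M T : Subgroup G} (hET : E ≤ T) (hMT : M ≤ T) (hcard : Nat.card T = 3 * Nat.card M)
    (hE : Nat.card E = 81) (hEM : ¬ E ≤ M) : Nat.card ↥(E ⊓ M) = 27 := by
  have h1 : M.relIndex T = 3 := by
    have := Subgroup.relIndex_mul_relIndex (⊥ : Subgroup G) M T bot_le hMT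
    rw [Subgroup.relIndex_bot_left, Subgroup.relIndex_bot_left, hcard] at this
    have hM0 : 0 < Nat.card M := Nat.card_pos
    nlinarith
  have h2 : M.relIndex E ≤ 3 := by
    rw [← h1]
    exact Subgroup.relIndex_le_of_le_right hET (by rw [h1]; norm_num)
  have h3 := Subgroup.relIndex_mul_relIndex (⊥ : Subgroup G) (M ⊓ E) E bot_le inf_le_right
  rw [Subgroup.relIndex_bot_left, Subgroup.relIndex_bot_left, Subgroup.inf_relIndex_right, hE] at h3
  have h4 : M.relIndex E ≠ 1 := by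
    intro h
    exact hEM (Subgroup.relIndex_eq_one.1 h)
  have hc : E ⊓ M = M ⊓ E := inf_comm _ _
  rw [hc]
  have h5 : M.relIndex E ≠ 0 := by
    intro h; rw [h] at h3; omega
  have h7 : M.relIndex E ≠ 2 := by
    intro h; rw [h] at h3; omega
  have h6 : M.relIndex E = 3 := by omega
  rw [h6] at h3
  omega

/-- **The number of subgroups `E₈₁` of a 3-group of rank exactly 4 is 1 modulo 3.** -/
theorem count4 (hG : IsPGroup 3 G) : ∀ (n : ℕ) (T : Subgroup G), Nat.card T = n →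
    (∀ E : Subgroup G, E ≤ T → El E → Nat.card E ≤ 81) → (E4 T).Nonempty →
    (((E4 T).card : ℕ) : ZMod 3) = 1 := by
  intro n
  induction n using Nat.strong_induction_on with
  | _ n ih =>
  intro T hn hrk hne
  obtain ⟨B, hB⟩ := hne
  obtain ⟨hBT, hBEl, hBc⟩ := mem_E4.1 hB
  by_cases hBeq : B = T
  · have : E4 T = {T} := by
      ext E
      rw [Finset.mem_singleton]
      constructor
      · intro hE
        obtain ⟨h1, -, h3⟩ := mem_E4.1 hE
        apply Subgroup.eq_of_le_of_card_ge h1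
        rw [h3, ← hBc, hBeq]
      · rintro rfl
        subst hBeq
        exact hB
    rw [this]; simp
  obtain ⟨M, hBM, hMT, hcardM, hMN⟩ := exists_max_above hG hBT hBeq
  have hTp : IsPGroup 3 T := hG.to_subgroup T
  have hM0 : 0 < Nat.card M := Nat.card_pos
  have hlt : Nat.card M < n := by omega
  have hcM : (((E4 M).card : ℕ) : ZMod 3) = 1 :=
    ih _ hlt M rfl (fun E hE => hrk E (hE.trans hMT)) ⟨B, mem_E4.2 ⟨hBM, hBEl, hBc⟩⟩
  have hE4conj : ∀ {Q : Subgroup G}, Nrm T Q → ∀ t ∈ T, ∀ E ∈ E4 Q, conjS t E ∈ E4 Q := by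
    intro Q hQ t ht E hE
    obtain ⟨h1, h2, h3⟩ := mem_E4.1 hE
    refine mem_E4.2 ⟨?_, h2.conjS t, by rw [card_conjS, h3]⟩
    intro x hx
    rw [mem_conjS] at hx
    have := hQ t ht _ (h1 hx)
    have e : t * (t⁻¹ * x * t) * t⁻¹ = x := by group
    rwa [e] at this
  have hTT : Nrm T T := fun t ht y hy => T.mul_mem (T.mul_mem ht hy) (T.inv_mem ht)
  -- a normal member in `M`
  have hfix := card_fix_mod hTp (E4 M) (hE4conj hMN)
  rw [hcM] at hfix
  have hne2 : ((E4 M).filter (Nrm T)).Nonempty := by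
    rw [Finset.nonempty_iff_ne_empty]
    intro h
    rw [h] at hfix
    simp at hfix
  obtain ⟨R, hR⟩ := hne2
  obtain ⟨hRm, hRN⟩ := Finset.mem_filter.1 hR
  obtain ⟨hRM, hREl, hRc⟩ := mem_E4.1 hRm
  -- outside `M`
  have hsub : E4 M ⊆ E4 T := by
    intro E hE
    obtain ⟨a, b, c⟩ := mem_E4.1 hE
    exact mem_E4.2 ⟨a.trans hMT, b, c⟩
  let D := E4 T \ E4 M
  have hcard : (E4 T).card = (E4 M).card + D.card := by
    rw [Finset.card_sdiff_of_subset hsub]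
    have := Finset.card_le_card hsub
    omega
  have hstable : ∀ {X Y : Finset (Subgroup G)}, (∀ t ∈ T, ∀ E ∈ X, conjS t E ∈ X) →
      (∀ t ∈ T, ∀ E ∈ Y, conjS t E ∈ Y) → ∀ t ∈ T, ∀ E ∈ X \ Y, conjS t E ∈ X \ Y := by
    intro X Y hX hY t ht E hE
    obtain ⟨h1, h2⟩ := Finset.mem_sdiff.1 hE
    refine Finset.mem_sdiff.2 ⟨hX t ht E h1, fun hc => h2 ?_⟩
    have := hY t⁻¹ (T.inv_mem ht) _ hc
    rwa [conjS_inv_conjS] at this
  have hfixD := card_fix_mod hTp D (hstable (hE4conj hTT) (hE4conj hMN))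
  let N := D.filter (Nrm T)
  let 𝓐 : Finset (Subgroup G) := Finset.univ.filter fun A => A ≤ M ∧ El A ∧ Nat.card A = 27 ∧ Nrm T A
  have hmaps : (N : Set (Subgroup G)).MapsTo (fun E => E ⊓ M) 𝓐 := by
    intro E hE
    have hE' : E ∈ N := hE
    obtain ⟨hE1, hE2⟩ := Finset.mem_filter.1 hE'
    obtain ⟨hE3, hE4⟩ := Finset.mem_sdiff.1 hE1
    obtain ⟨e1, e2, e3⟩ := mem_E4.1 hE3
    have hnot : ¬ E ≤ M := fun h => hE4 (mem_E4.2 ⟨h, e2, e3⟩)
    refine Finset.mem_filter.2 ⟨Finset.mem_univ _, inf_le_right, e2.mono inf_le_left,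
      card_inf_27 e1 hMT hcardM e3 hnot, ?_⟩
    exact fun t ht z hz => ⟨hE2 t ht z hz.1, hMN t ht z hz.2⟩
  have hsum := Finset.card_eq_sum_card_fiberwise hmaps
  -- each fibre
  have hfib : ∀ A ∈ 𝓐, (((N.filter (fun E => E ⊓ M = A)).card : ℕ) : ZMod 3) =
      if A ∈ SS T M R then 1 else 0 := by
    intro A hA
    obtain ⟨-, a1, a2, a3, a4⟩ := Finset.mem_filter.1 hA
    have hAT : A ≤ T := a1.trans hMT
    have hAC : ∀ {Q : Subgroup G}, A ≤ Q → A ≤ Cn Q A := fun hQ y hy =>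
      mem_Cn.2 ⟨hQ hy, fun b hb => a2.1 b hb y hy⟩
    have hcenC : ∀ {Q : Subgroup G}, ∀ z ∈ A, ∀ q ∈ Cn Q A, z * q = q * z := fun z hz q hq =>
      (mem_Cn.1 hq).2 z hz
    have hsub2 : RR (Cn M A) A ⊆ RR (Cn T A) A := by
      intro E hE
      obtain ⟨e1, e2, e3, e4⟩ := mem_RR.1 hE
      refine mem_RR.2 ⟨fun y hy => ?_, e2, e3, e4⟩
      obtain ⟨h1, h2⟩ := mem_Cn.1 (e1 hy)
      exact mem_Cn.2 ⟨hMT h1, h2⟩
    have hfibeq : N.filter (fun E => E ⊓ M = A) = (RR (Cn T A) A \ RR (Cn M A) A).filter (Nrm T) := by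
      ext E
      simp only [Finset.mem_filter, Finset.mem_sdiff]
      constructor
      · rintro ⟨hEN, hE3⟩
        obtain ⟨hE1, hE2⟩ := Finset.mem_filter.1 hEN
        obtain ⟨hE4', hE5⟩ := Finset.mem_sdiff.1 hE1
        obtain ⟨e1, e2, e3⟩ := mem_E4.1 hE4'
        have hAE : A ≤ E := by rw [← hE3]; exact inf_le_left
        refine ⟨⟨mem_RR.2 ⟨fun y hy => mem_Cn.2 ⟨e1 hy, fun b hb => e2.1 b (hAE hb) y hy⟩, hAE, e2, by rw [e3, a3]⟩, ?_⟩, hE2⟩
        intro h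
        obtain ⟨f1, -, -, -⟩ := mem_RR.1 h
        exact hE5 (mem_E4.2 ⟨fun y hy => (mem_Cn.1 (f1 hy)).1, e2, e3⟩)
      · rintro ⟨⟨hE1, hE2⟩, hE3⟩
        obtain ⟨f1, f2, f3, f4⟩ := mem_RR.1 hE1
        have hE81 : Nat.card E = 81 := by rw [f4, a3]
        have hET : E ≤ T := fun y hy => (mem_Cn.1 (f1 hy)).1
        have hnot : ¬ E ≤ M := by
          intro h
          apply hE2
          exact mem_RR.2 ⟨fun y hy => mem_Cn.2 ⟨h hy, (mem_Cn.1 (f1 hy)).2⟩, f2, f3, f4⟩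
        refine ⟨Finset.mem_filter.2 ⟨Finset.mem_sdiff.2 ⟨mem_E4.2 ⟨hET, f3, hE81⟩, fun h => hnot (mem_E4.1 h).1⟩, hE3⟩, ?_⟩
        apply le_antisymm
        · rintro y ⟨hyE, hyM⟩
          by_contra hyA
          apply hnot
          rw [eq_sup_of_mem f2 f3 f4 hyE hyA]
          exact sup_le a1 ((zpowers_le).2 hyM)
        · exact le_inf f2 a1
    rw [hfibeq]
    have hstT := RR_conj (T := T) (nrm_Cn hTT a4) a4
    have hstM := RR_conj (T := T) (nrm_Cn hMN a4) a4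
    have hfixA := card_fix_mod hTp (RR (Cn T A) A \ RR (Cn M A) A) (hstable hstT hstM)
    rw [← hfixA]
    have hcardA : (RR (Cn T A) A).card = (RR (Cn M A) A).card + (RR (Cn T A) A \ RR (Cn M A) A).card := by
      rw [Finset.card_sdiff_of_subset hsub2]
      have := Finset.card_le_card hsub2
      omega
    have hcast : (((RR (Cn T A) A).card : ℕ) : ZMod 3) = ((RR (Cn M A) A).card : ℕ) +
        (((RR (Cn T A) A \ RR (Cn M A) A).card : ℕ) : ZMod 3) := by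
      rw [hcardA, Nat.cast_add]
    by_cases hTne : (RR (Cn T A) A).Nonempty
    · have h1 := rel_count hG _ _ A rfl a2 (hAC hAT) hcenC hTne
      by_cases hMne : (RR (Cn M A) A).Nonempty
      · have h2 := rel_count hG _ _ A rfl a2 (hAC a1) hcenC hMne
        rw [h1, h2] at hcast
        have hnotS : A ∉ SS T M R := fun h => (mem_SS.1 h).1.hmax hMne
        rw [if_neg hnotS]
        have : (1 : ZMod 3) + (((RR (Cn T A) A \ RR (Cn M A) A).card : ℕ) : ZMod 3) = 1 + 0 := by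
          rw [← hcast, add_zero]
        exact add_left_cancel this
      · have hemp : RR (Cn M A) A = ∅ := Finset.not_nonempty_iff_eq_empty.1 hMne
        rw [hemp, Finset.card_empty, Nat.cast_zero, zero_add, h1] at hcast
        have hS : A ∈ SS T M R := mem_SS.2 ⟨⟨hMT, hMN, hRM, hREl, hRc, hRN, a1, a2, a3, a4, hMne⟩, hTne⟩
        rw [if_pos hS, hemp]
        exact hcast.symm
    · have hnotS : A ∉ SS T M R := fun h => hTne (mem_SS.1 h).2
      rw [if_neg hnotS]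
      have hemp : RR (Cn T A) A = ∅ := Finset.not_nonempty_iff_eq_empty.1 hTne
      rw [hemp]
      simp
  have hN0 : ((N.card : ℕ) : ZMod 3) = 0 := by
    rw [hsum, Nat.cast_sum, Finset.sum_congr rfl hfib, Finset.sum_boole]
    have h3 := three_dvd_SS hG T M R
    have hfeq : 𝓐.filter (fun A => A ∈ SS T M R) = SS T M R := by
      ext A
      simp only [Finset.mem_filter, and_iff_right_iff_imp]
      intro hA
      obtain ⟨c, -⟩ := mem_SS.1 hA
      exact Finset.mem_filter.2 ⟨Finset.mem_univ _, c.hAM, c.hAEl, c.hAc, c.hAN⟩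
    rw [hfeq]
    simpa using (ZMod.natCast_eq_zero_iff _ _).2 h3
  rw [hcard, Nat.cast_add, hcM, hfixD, hN0, add_zero]

end Cfsg.Agent.Lib.Conn3
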