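import Mathlib
import Cfsg.Agent.Lib.Conn3.Count

/-!
# Centralizers of elements of order 3 in 3-groups of rank at least 4

If `y` has order dividing 3 in a 3-group containing an elementary abelian subgroup of order 81, then
`C(y)` contains an elementary abelian subgroup of order at least 27.
-/

set_option autoImplicit false

namespace Cfsg.Agent.Lib.Conn3

open Subgroup
open scoped Classical

variable {G : Type*} [Group G] [Finite G]

theorem card_ker_comp {A : Type*} [Group A] [Finite A] (g h : A →* A) :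
    Nat.card (g.comp h).ker ≤ Nat.card g.ker * Nat.card h.ker := by
  let K := (g.comp h).ker
  let φ : K →* A := h.comp K.subtype
  have h1 : Nat.card K = Nat.card φ.ker * Nat.card φ.range := by
    rw [← Subgroup.index_ker, Subgroup.card_mul_index]
  have h2 : Nat.card φ.range ≤ Nat.card g.ker := by
    apply Subgroup.card_le_of_le
    rintro _ ⟨k, rfl⟩
    have := k.2
    exact this
  have h3 : Nat.card φ.ker ≤ Nat.card h.ker := by
    have hmem : ∀ k : φ.ker, ((k : K) : A) ∈ h.ker := fun k => k.2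
    apply Nat.card_le_card_of_injective (fun k : φ.ker => (⟨_, hmem k⟩ : h.ker))
    intro k k' e
    have e' := congrArg Subtype.val e
    exact Subtype.ext (Subtype.ext e')
  show Nat.card K ≤ _
  rw [h1, mul_comm]
  exact Nat.mul_le_mul h2 h3

theorem aux_mul {A : Type*} [CommGroup A] (e p q : A) :
    ((e / q) / (q / p)) / ((q / p) / (p / e)) = p ^ 3 / q ^ 3 := by
  apply Additive.ofMul.injective
  simp only [ofMul_div, ofMul_pow]
  abel

/-- An element of order dividing 3 normalizing `E₈₁` centralizes at least 9 of its elements. -/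
theorem card_centralizer_ge {E : Subgroup G} {y : G} (hE : El E) (hc : Nat.card E = 81)
    (hyE : ∀ e ∈ E, y * e * y⁻¹ ∈ E) (hy : y ^ 3 = 1) :
    9 ≤ Nat.card ↥(E ⊓ centralizer ({y} : Set G)) := by
  letI : CommGroup E := { (inferInstance : Group E) with
    mul_comm := fun a b => Subtype.ext (hE.1 a a.2 b b.2) }
  let σ : E →* E := MonoidHom.mk' (fun e => ⟨y * e * y⁻¹, hyE e e.2⟩) (by
    rintro ⟨a, ha⟩ ⟨b, hb⟩
    apply Subtype.ext
    show y * (a * b) * y⁻¹ = (y * a * y⁻¹) * (y * b * y⁻¹)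
    group)
  have hσ3 : ∀ e : E, σ (σ (σ e)) = e := by
    rintro ⟨e, he⟩
    apply Subtype.ext
    show y * (y * (y * e * y⁻¹) * y⁻¹) * y⁻¹ = e
    have h3 : y * y * y = 1 := by simpa [pow_succ] using hy
    have e1 : y * (y * (y * e * y⁻¹) * y⁻¹) * y⁻¹ = (y * y * y) * e * (y * y * y)⁻¹ := by
      simp only [mul_inv_rev, mul_assoc]
    rw [e1, h3]; simp
  have hcube : ∀ e : E, e ^ 3 = 1 := by
    rintro ⟨e, he⟩
    apply Subtype.ext
    exact hE.2 e he
  let f : E →* E := σ / MonoidHom.id E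
  have hfa : ∀ e, f e = σ e / e := fun e => rfl
  have hf3 : ∀ e, f (f (f e)) = 1 := by
    intro e
    simp only [hfa, map_div, hσ3]
    rw [aux_mul, hcube, hcube]; simp
  have hker : (f.comp (f.comp f)).ker = ⊤ := by
    rw [eq_top_iff]
    intro e _
    exact hf3 e
  have hb1 := card_ker_comp f (f.comp f)
  have hb2 := card_ker_comp f f
  rw [hker, Subgroup.card_top, hc] at hb1
  have hb3 : 81 ≤ Nat.card f.ker * (Nat.card f.ker * Nat.card f.ker) :=
    hb1.trans (Nat.mul_le_mul_left _ hb2)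
  have hdvd : Nat.card f.ker ∣ 3 ^ 4 := by
    have := Subgroup.card_subgroup_dvd_card f.ker
    rwa [hc] at this
  obtain ⟨k, hk, hkc⟩ := (Nat.dvd_prime_pow (by norm_num)).1 hdvd
  have hk2 : 2 ≤ k := by
    by_contra hlt
    have : k = 0 ∨ k = 1 := by omega
    rcases this with rfl | rfl
    · rw [hkc] at hb3; norm_num at hb3
    · rw [hkc] at hb3; norm_num at hb3
  have h9 : 9 ≤ Nat.card f.ker := by
    rw [hkc]
    calc 9 = 3 ^ 2 := by norm_num
      _ ≤ 3 ^ k := Nat.pow_le_pow_right (by norm_num) hk2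
  refine h9.trans ?_
  have hmem : ∀ e : f.ker, ((e : E) : G) ∈ E ⊓ centralizer ({y} : Set G) := by
    rintro ⟨⟨e, he⟩, hek⟩
    refine Subgroup.mem_inf.2 ⟨he, Subgroup.mem_centralizer_iff.2 ?_⟩
    intro w hw
    have hw' : w = y := hw
    rw [hw']
    have h1 : f ⟨e, he⟩ = 1 := hek
    rw [hfa, div_eq_one] at h1
    have h2 : y * e * y⁻¹ = e := congrArg Subtype.val h1
    have e3 : y * e = (y * e * y⁻¹) * y := by group
    rw [e3, h2]
  apply Nat.card_le_card_of_injective (fun e : f.ker => (⟨_, hmem e⟩ : ↥(E ⊓ centralizer ({y} : Set G))))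
  intro e e' h
  have h' := congrArg Subtype.val h
  exact Subtype.ext (Subtype.ext h')

theorem exists_sub81 (hG : IsPGroup 3 G) {E : Subgroup G} (hE : 81 ≤ Nat.card E) :
    ∃ E' ≤ E, Nat.card E' = 81 := by
  obtain ⟨k, hk⟩ := IsPGroup.iff_card.1 (hG.to_subgroup E)
  have h4 : 4 ≤ k := by
    by_contra hlt
    have : k ≤ 3 := by omega
    have h2 : 3 ^ k ≤ 3 ^ 3 := Nat.pow_le_pow_right (by norm_num) this
    rw [hk] at hE
    omega
  have hdvd : 3 ^ 4 ∣ Nat.card E := by
    rw [hk]; exact pow_dvd_pow 3 h4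
  haveI : Fact (Nat.Prime 3) := ⟨by norm_num⟩
  obtain ⟨K, hK⟩ := Sylow.exists_subgroup_card_pow_prime (G := E) 3 hdvd
  refine ⟨K.map E.subtype, Subgroup.map_subtype_le K, ?_⟩
  rw [Subgroup.card_map_of_injective E.subtype_injective, hK]; norm_num

theorem card_le_three_inf {E M T : Subgroup G} (hET : E ≤ T) (hMT : M ≤ T)
    (hcard : Nat.card T = 3 * Nat.card M) : Nat.card E ≤ 3 * Nat.card ↥(E ⊓ M) := by
  have h1 : M.relIndex T = 3 := by
    have := Subgroup.relIndex_mul_relIndex (⊥ : Subgroup G) M T bot_le hMT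
    rw [Subgroup.relIndex_bot_left, Subgroup.relIndex_bot_left, hcard] at this
    have hM0 : 0 < Nat.card M := Nat.card_pos
    nlinarith
  have h2 : M.relIndex E ≤ 3 := by
    rw [← h1]
    exact Subgroup.relIndex_le_of_le_right hET (by rw [h1]; norm_num)
  have h3 := Subgroup.relIndex_mul_relIndex (⊥ : Subgroup G) (M ⊓ E) E bot_le inf_le_right
  rw [Subgroup.relIndex_bot_left, Subgroup.relIndex_bot_left, Subgroup.inf_relIndex_right] at h3
  have hc : E ⊓ M = M ⊓ E := inf_comm _ _
  rw [hc, ← h3, mul_comm]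
  exact Nat.mul_le_mul_right _ h2

/-- **The key consequence of the count.** -/
theorem claim (hG : IsPGroup 3 G) {y : G} (hy : y ^ 3 = 1) {E₀ : Subgroup G} (hE₀ : El E₀)
    (hc₀ : 81 ≤ Nat.card E₀) :
    ∃ F : Subgroup G, El F ∧ 27 ≤ Nat.card F ∧ ∀ f ∈ F, f * y = y * f := by
  by_contra hno
  have key : ∀ (n : ℕ) (T : Subgroup G), Nat.card T = n → y ∈ T → ¬ (E4 T).Nonempty := by
    intro n
    induction n using Nat.strong_induction_on with
    | _ n ih =>
    intro T hn hyT hne
    obtain ⟨B, hB⟩ := id hne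
    obtain ⟨hBT, hBEl, hBc⟩ := mem_E4.1 hB
    have hz3 : Nat.card (zpowers y) ≤ 3 := by
      rw [Nat.card_zpowers]
      exact Nat.le_of_dvd (by norm_num) (orderOf_dvd_of_pow_eq_one hy)
    have hTc : 81 ≤ Nat.card T := by
      rw [← hBc]; exact Subgroup.card_le_of_le hBT
    have hzne : zpowers y ≠ T := by
      intro h
      rw [h] at hz3
      omega
    obtain ⟨M, hyM, hMT, hcardM, hMN⟩ := exists_max_above hG ((zpowers_le).2 hyT) hzne
    have hM0 : 0 < Nat.card M := Nat.card_pos
    have hlt : Nat.card M < n := by omega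
    have hM := ih _ hlt M rfl ((zpowers_le).1 hyM)
    have hrk : ∀ E : Subgroup G, E ≤ T → El E → Nat.card E ≤ 81 := by
      intro E hET hEl
      by_contra hgt
      have hgt' : 81 < Nat.card E := by omega
      obtain ⟨k, hk⟩ := IsPGroup.iff_card.1 (hG.to_subgroup E)
      have h5 : 5 ≤ k := by
        by_contra hlt
        have : k ≤ 4 := by omega
        have h2 : 3 ^ k ≤ 3 ^ 4 := Nat.pow_le_pow_right (by norm_num) this
        rw [hk] at hgt'
        omega
      have h243 : 243 ≤ Nat.card E := by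
        rw [hk]
        calc 243 = 3 ^ 5 := by norm_num
          _ ≤ 3 ^ k := Nat.pow_le_pow_right (by norm_num) h5
      have h6 := card_le_three_inf hET hMT hcardM
      have h7 : 81 ≤ Nat.card ↥(E ⊓ M) := by omega
      obtain ⟨E', hE', hE'c⟩ := exists_sub81 hG h7
      exact hM ⟨E', mem_E4.2 ⟨hE'.trans inf_le_right, hEl.mono (hE'.trans inf_le_left), hE'c⟩⟩
    have h1 := count4 hG _ T rfl hrk hne
    have hstable : ∀ t ∈ zpowers y, ∀ E ∈ E4 T, conjS t E ∈ E4 T := by
      intro t ht E hE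
      obtain ⟨h1, h2, h3⟩ := mem_E4.1 hE
      have htT : t ∈ T := (zpowers_le).2 hyT ht
      refine mem_E4.2 ⟨?_, h2.conjS t, by rw [card_conjS, h3]⟩
      intro x hx
      rw [mem_conjS] at hx
      have := T.mul_mem (T.mul_mem htT (h1 hx)) (T.inv_mem htT)
      have e : t * (t⁻¹ * x * t) * t⁻¹ = x := by group
      rwa [e] at this
    have h2 := card_fix_mod (hG.to_subgroup (zpowers y)) (E4 T) hstable
    rw [h1] at h2
    have hne3 : ((E4 T).filter (Nrm (zpowers y))).Nonempty := by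
      rw [Finset.nonempty_iff_ne_empty]
      intro h
      rw [h] at h2
      simp at h2
    obtain ⟨E, hE⟩ := hne3
    obtain ⟨hEm, hEN⟩ := Finset.mem_filter.1 hE
    obtain ⟨-, hEEl, hEc⟩ := mem_E4.1 hEm
    have hyN : ∀ e ∈ E, y * e * y⁻¹ ∈ E := hEN y (mem_zpowers y)
    apply hno
    by_cases hyE : y ∈ E
    · refine ⟨E, hEEl, by omega, fun f hf => hEEl.1 f hf y hyE⟩
    · have hK := card_centralizer_ge hEEl hEc hyN hy
      set K := E ⊓ centralizer ({y} : Set G) with hKdef
      have hcK : ∀ z ∈ K, z * y = y * z := by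
        intro z hz
        have := Subgroup.mem_centralizer_iff.1 (Subgroup.mem_inf.1 hz).2
        exact (this y rfl).symm
      have hyK : y ∉ K := fun h => hyE h.1
      refine ⟨K ⊔ zpowers y, (hEEl.mono inf_le_left).sup hcK hy, ?_, ?_⟩
      · rw [card_sup hcK hy hyK]; omega
      · exact commute_sup hcK rfl
  obtain ⟨E', hE', hE'c⟩ := exists_sub81 hG hc₀
  exact key _ ⊤ rfl (Subgroup.mem_top y) ⟨E', mem_E4.2 ⟨le_top, hE₀.mono hE', hE'c⟩⟩

end Cfsg.Agent.Lib.Conn3
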