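import Mathlib
import Cfsg.Prelude.Def_Balance
import Cfsg.Prelude.Def_CaseTheorems
import Cfsg.Prelude.Def_Transfer
import Cfsg.Agent.Lib.Conn3.Main

/-!
# A 3-group of rank at least 4 is 2-connected
-/

set_option autoImplicit false

namespace Cfsg.Agent.Lib.Conn3

open Subgroup
open scoped Classical

variable {P : Type*} [Group P] [Finite P]

theorem el_of_ea {E : Subgroup P} (hE : Cfsg.IsElementaryAbelian 3 E) : El E := by
  refine ⟨fun a ha b hb => ?_, hE.2⟩
  have := hE.1.is_comm.comm ⟨a, ha⟩ ⟨b, hb⟩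
  exact congrArg Subtype.val this

theorem ea_of_el {E : Subgroup P} (hE : El E) : Cfsg.IsElementaryAbelian 3 E :=
  ⟨⟨⟨fun a b => Subtype.ext (hE.1 a a.2 b b.2)⟩⟩, hE.2⟩

theorem three_group_connected (hP : IsPGroup 3 P) (hrk : ¬ Cfsg.PRankLE 3 3 P) :
    Cfsg.IsKConnected 3 2 P := by
  haveI : Fact (Nat.Prime 3) := ⟨by norm_num⟩
  -- a large elementary abelian subgroup
  unfold Cfsg.PRankLE at hrk
  push Not at hrk
  obtain ⟨A, hAc, hA3, hAgt⟩ := hrk
  have hAEl : El A := el_of_ea ⟨hAc, hA3⟩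
  have hpow : ∀ (E : Subgroup P) (m : ℕ), 3 ^ m < Nat.card E → 3 ^ (m + 1) ≤ Nat.card E := by
    intro E m h
    obtain ⟨k, hk⟩ := IsPGroup.iff_card.1 (hP.to_subgroup E)
    rw [hk] at h ⊢
    have : m < k := (Nat.pow_lt_pow_iff_right (by norm_num)).1 h
    exact Nat.pow_le_pow_right (by norm_num) this
  have hA81 : 81 ≤ Nat.card A := by simpa using hpow A 3 hAgt
  -- a central element of order 3
  have hcardP : 81 ≤ Nat.card P := hA81.trans (Subgroup.card_le_card_group A)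
  haveI : Nontrivial P := by
    rw [← Finite.one_lt_card_iff_nontrivial]; omega
  have hcn : Nontrivial (center P) := hP.center_nontrivial
  have hzdvd : 3 ∣ Nat.card (center P) := by
    obtain ⟨k, hk⟩ := IsPGroup.iff_card.1 (hP.to_subgroup (center P))
    have h1 : 1 < Nat.card (center P) := Finite.one_lt_card_iff_nontrivial.2 hcn
    rw [hk] at h1 ⊢
    have : k ≠ 0 := by
      rintro rfl
      simp at h1
    exact dvd_pow_self 3 this
  obtain ⟨z₀, hz₀⟩ := exists_prime_orderOf_dvd_card' 3 hzdvd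
  set z : P := (z₀ : P) with hzdef
  have hzo : orderOf z = 3 := by
    rw [hzdef, Subgroup.orderOf_coe, hz₀]
  have hz3 : z ^ 3 = 1 := by rw [← hzo]; exact pow_orderOf_eq_one z
  have hzcen : z ∈ center P := z₀.2
  set Z := zpowers z with hZdef
  have hZc : Nat.card Z = 3 := by rw [hZdef, Nat.card_zpowers, hzo]
  have hZcen : ∀ w ∈ Z, ∀ q : P, w * q = q * w := by
    intro w hw q
    have h1 : Z ≤ center P := (zpowers_le).2 hzcen
    exact ((Subgroup.mem_center_iff.1 (h1 hw)) q).symm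
  have hZEl : El Z := by
    constructor
    · intro a ha b _
      exact hZcen a ha b
    · intro a ha
      obtain ⟨k, rfl⟩ := Subgroup.mem_zpowers_iff.1 ha
      rw [← zpow_natCast (z ^ k) 3, ← zpow_mul, mul_comm, zpow_mul, zpow_natCast, hz3, one_zpow]
  have hTop : IsPGroup 3 (⊤ : Subgroup P) := hP.to_subgroup ⊤
  have hZN : Nrm (⊤ : Subgroup P) Z := by
    intro t _ w hw
    rw [← hZcen w hw t]
    simpa using hw
  have hTT : Nrm (⊤ : Subgroup P) ⊤ := fun _ _ _ _ => Subgroup.mem_top _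
  -- a normal elementary abelian subgroup of order 9 containing `z`
  obtain ⟨x, hxA, hxZ⟩ := Cfg.exists_not_mem (U := Z) (V := A) (by rw [hZc]; omega)
  have hcx : ∀ w ∈ Z, w * x = x * w := fun w hw => hZcen w hw x
  have hne : (RR (⊤ : Subgroup P) Z).Nonempty :=
    ⟨Z ⊔ zpowers x, mem_RR.2 ⟨le_top, le_sup_left, hZEl.sup hcx (hAEl.2 x hxA), card_sup hcx (hAEl.2 x hxA) hxZ⟩⟩
  obtain ⟨N, hN, hNN⟩ := rel_fix hP (T := ⊤) hZEl le_top (fun w hw q _ => hZcen w hw q) hTT hZN hne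
  obtain ⟨-, hZleN, hNEl, hNc⟩ := mem_RR.1 hN
  have hNc9 : Nat.card N = 9 := by rw [hNc, hZc]
  obtain ⟨n, hnN, hnZ⟩ := Cfg.exists_not_mem (U := Z) (V := N) (by rw [hZc, hNc9]; norm_num)
  have hNeq : N = Z ⊔ zpowers n := eq_sup_of_mem hZleN hNEl hNc hnN hnZ
  -- the commutator map
  have hψmem : ∀ g : P, g * n * g⁻¹ * n⁻¹ ∈ Z := fun g =>
    conj_mod hTop hZN hNN hZleN hNEl hNc (Subgroup.mem_top g) hnN
  let ψ : P →* Z := MonoidHom.mk' (fun g => ⟨g * n * g⁻¹ * n⁻¹, hψmem g⟩) (by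
    intro g h
    apply Subtype.ext
    show g * h * n * (g * h)⁻¹ * n⁻¹ = (g * n * g⁻¹ * n⁻¹) * (h * n * h⁻¹ * n⁻¹)
    have hc := hZcen _ (hψmem h) g
    have e1 : g * h * n * (g * h)⁻¹ * n⁻¹ = g * (h * n * h⁻¹ * n⁻¹) * n * g⁻¹ * n⁻¹ := by group
    rw [e1, ← hc]
    have hc2 := hZcen _ (hψmem h) (g * n * g⁻¹ * n⁻¹)
    rw [← hc2]
    group)
  let H : Subgroup P := centralizer ({n} : Set P)
  have hHmem : ∀ {g : P}, g ∈ H ↔ n * g = g * n := by
    intro g
    constructor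
    · intro h
      exact Subgroup.mem_centralizer_iff.1 h n rfl
    · intro h
      refine Subgroup.mem_centralizer_iff.2 ?_
      intro w hw
      have hw' : w = n := hw
      rw [hw']; exact h
  have hidx : ∀ E : Subgroup P, Nat.card E ≤ 3 * Nat.card ↥(E ⊓ H) := by
    intro E
    let φ : E →* Z := ψ.comp E.subtype
    have h1 : Nat.card E = Nat.card φ.ker * Nat.card φ.range := by
      rw [← Subgroup.index_ker, Subgroup.card_mul_index]
    have h2 : Nat.card φ.range ≤ 3 := by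
      rw [← hZc]; exact Subgroup.card_le_card_group _
    have h3 : Nat.card φ.ker ≤ Nat.card ↥(E ⊓ H) := by
      have hmem : ∀ e : φ.ker, ((e : E) : P) ∈ E ⊓ H := by
        rintro ⟨⟨e, he⟩, hk⟩
        refine Subgroup.mem_inf.2 ⟨he, hHmem.2 ?_⟩
        have hk' : φ ⟨e, he⟩ = 1 := hk
        have h4 : e * n * e⁻¹ * n⁻¹ = 1 := congrArg Subtype.val hk'
        exact (Cfg.comm_of_eq h4).symm
      apply Nat.card_le_card_of_injective (fun e : φ.ker => (⟨_, hmem e⟩ : ↥(E ⊓ H)))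
      intro e e' h
      have h' := congrArg Subtype.val h
      exact Subtype.ext (Subtype.ext h')
    rw [h1, mul_comm]
    exact Nat.mul_le_mul h2 h3
  -- every vertex lies in an elementary abelian subgroup of order at least 27
  have hup : ∀ E : Subgroup P, El E → 9 ≤ Nat.card E → ∃ E₂, E ≤ E₂ ∧ El E₂ ∧ 27 ≤ Nat.card E₂ := by
    intro E hE hEc
    by_cases h27 : 27 ≤ Nat.card E
    · exact ⟨E, le_refl _, hE, h27⟩
    have hE9 : Nat.card E = 9 := by
      by_contra hne9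
      have : 3 ^ 2 < Nat.card E := by norm_num; omega
      have := hpow E 2 this
      norm_num at this
      omega
    by_cases hzE : z ∈ E
    · have hZE : Z ≤ E := (zpowers_le).2 hzE
      obtain ⟨y, hyE, hyZ⟩ := Cfg.exists_not_mem (U := Z) (V := E) (by rw [hZc, hE9]; norm_num)
      obtain ⟨F, hF, hFc, hFy⟩ := claim hP (hE.2 y hyE) hAEl hA81
      have hF₁ := hF.sup hFy (hE.2 y hyE)
      have hcz : ∀ w ∈ F ⊔ zpowers y, w * z = z * w := fun w _ =>
        (hZcen z (mem_zpowers z) w).symm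
      have hF₂ := hF₁.sup hcz hz3
      refine ⟨(F ⊔ zpowers y) ⊔ zpowers z, ?_, hF₂, ?_⟩
      · rw [eq_sup_of_mem hZE hE (by rw [hE9, hZc]) hyE hyZ]
        apply sup_le
        · exact le_sup_right
        · exact (zpowers_le).2 (mem_sup_left (mem_sup_right (mem_zpowers y)))
      · refine hFc.trans (Subgroup.card_le_of_le ?_)
        exact le_trans le_sup_left le_sup_left
    · have hcz : ∀ w ∈ E, w * z = z * w := fun w _ => (hZcen z (mem_zpowers z) w).symm
      refine ⟨E ⊔ zpowers z, le_sup_left, hE.sup hcz hz3, ?_⟩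
      rw [card_sup hcz hz3 hzE, hE9]
  -- the connection to the hub `N`
  let r : Subgroup P → Subgroup P → Prop := fun A B =>
    Cfsg.IsElementaryAbelian 3 A ∧ 3 ^ 2 ≤ Nat.card ↥A ∧ Cfsg.IsElementaryAbelian 3 B ∧
        3 ^ 2 ≤ Nat.card ↥B ∧ ∀ a ∈ A, ∀ b ∈ B, a * b = b * a
  have hsymm : ∀ {A B : Subgroup P}, r A B → r B A := by
    rintro A B ⟨h1, h2, h3, h4, h5⟩
    exact ⟨h3, h4, h1, h2, fun b hb a ha => (h5 a ha b hb).symm⟩
  have hconn : ∀ E : Subgroup P, El E → 9 ≤ Nat.card E → Relation.ReflTransGen r E N := by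
    intro E hE hEc
    obtain ⟨E₂, hEE₂, hE₂, hE₂c⟩ := hup E hE hEc
    have hF₀ : El (E₂ ⊓ H) := hE₂.mono inf_le_left
    have hF₀c : 9 ≤ Nat.card ↥(E₂ ⊓ H) := by
      have := hidx E₂
      omega
    have hcF : ∀ a ∈ E₂ ⊓ H, ∀ b ∈ N, a * b = b * a := by
      intro a ha b hb
      rw [hNeq] at hb
      have h1 : ∀ w ∈ Z, w * a = a * w := fun w hw => hZcen w hw a
      exact (commute_sup h1 (hHmem.1 ha.2) b hb).symm
    have e1 : r E E₂ := ⟨ea_of_el hE, by simpa using hEc, ea_of_el hE₂, by norm_num; omega,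
      fun a ha b hb => hE₂.1 a (hEE₂ ha) b hb⟩
    have e2 : r E₂ (E₂ ⊓ H) := ⟨ea_of_el hE₂, by norm_num; omega, ea_of_el hF₀, by simpa using hF₀c,
      fun a ha b hb => hE₂.1 a ha b hb.1⟩
    have e3 : r (E₂ ⊓ H) N := ⟨ea_of_el hF₀, by simpa using hF₀c, ea_of_el hNEl, by rw [hNc9]; norm_num,
      hcF⟩
    exact (Relation.ReflTransGen.single e1).tail e2 |>.tail e3
  intro E E' hE hEc hE' hE'c
  have h1 := hconn E (el_of_ea hE) (by simpa using hEc)
  have h2 := hconn E' (el_of_ea hE') (by simpa using hE'c)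
  have hrev : ∀ {a b : Subgroup P}, Relation.ReflTransGen r a b → Relation.ReflTransGen r b a := by
    intro a b h
    induction h with
    | refl => exact .refl
    | tail _ hbc ih => exact Relation.ReflTransGen.head (hsymm hbc) ih
  have h3 : Relation.ReflTransGen r N E' := hrev h2
  exact h1.trans h3

end Cfsg.Agent.Lib.Conn3
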